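import Cfsg.Agent.H2.SU4.SubOdd
import Cfsg.Prelude.Def_GeometricClasses

set_option autoImplicit false
set_option linter.unusedSectionVars false

/-!
Odd prime index subfield subgroups of `SU(n, q)`, `n ≥ 4`, in the form of the statements (conjunct (6) of the list
for `SU(4, q)`).
-/

namespace Cfsg.Agent.H2.SU4

variable {F : Type*} [Field F] [Fintype F] {q : ℕ}

theorem su_subfield_odd_maximal₄ (hF : Fintype.card F = q ^ 2) {n : ℕ} (hn : 4 ≤ n) (F₀ : Subfield F) (r : ℕ)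
    (hr : r.Prime) (hro : Odd r) (hcard : Fintype.card F = Nat.card F₀ ^ r)
    (P : Matrix.GeneralLinearGroup (Fin n) F)
    (hP : Cfsg.Geo.IsFormRationalStructure (Cfsg.hermForm n F q) F₀ 1 P) :
    Cfsg.Geo.IsMaximalIn (Cfsg.GU n F q ⊓ Cfsg.Geo.specialLinear (Fin n) F)
      (Cfsg.Geo.subfieldSubgroup F₀ P ⊓ (Cfsg.GU n F q ⊓ Cfsg.Geo.specialLinear (Fin n) F)) := by
  refine Cfsg.Agent.H98.Herm.su_subfield_of_pull F₀ P ?_
  exact OddRat4.maximal (hF := hF) (r := r) ⟨hn, hr, hro, hcard,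
    fun u v hu hv => by simpa [Cfsg.Agent.H98.Herm.pullForm] using (hP u v hu hv)⟩

theorem su4_conjunct_six (hF : Fintype.card F = q ^ 2) :
    ∀ (F₀ : Subfield F) (r : ℕ) (P : Matrix.GeneralLinearGroup (Fin 4) F), r.Prime → Odd r →
      Fintype.card F = Nat.card F₀ ^ r → Cfsg.Geo.IsFormRationalStructure (Cfsg.hermForm 4 F q) F₀ 1 P →
      Cfsg.Geo.IsMaximalIn (Cfsg.GU 4 F q ⊓ Cfsg.Geo.specialLinear (Fin 4) F)
        (Cfsg.Geo.subfieldSubgroup F₀ P ⊓ (Cfsg.GU 4 F q ⊓ Cfsg.Geo.specialLinear (Fin 4) F)) :=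
  fun F₀ r P hr hro hcard hP => su_subfield_odd_maximal₄ hF le_rfl F₀ r hr hro hcard P hP

end Cfsg.Agent.H2.SU4
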