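import Cfsg.Agent.H2.SU4.MonoFour

set_option autoImplicit false

/-!
Conjunct (3) of the geometric list for `SU(4, q)` in its stated form.
-/

namespace Cfsg.Agent.H2.SU4

variable {F : Type*} [Field F] [Fintype F] {q : ℕ}

theorem su4_conjunct_three (hF : Fintype.card F = q ^ 2) :
    q ≠ 3 → ∀ D : Fin 4 → Submodule F (Fin 4 → F),
      Cfsg.Geo.IsNondegenerateMDecomposition (Cfsg.hermForm 4 F q) 1 D →
      Cfsg.Geo.IsMaximalIn (Cfsg.GU 4 F q ⊓ Cfsg.Geo.specialLinear (Fin 4) F)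
        (Cfsg.Geo.decompositionStabilizer D ⊓ (Cfsg.GU 4 F q ⊓ Cfsg.Geo.specialLinear (Fin 4) F)) :=
  fun h3 _ hD => Cfsg.Agent.H3.maximal_of_std hF hD fun idx =>
    monomial_std_maximal₄ hF rfl h3 hD.decomp.two_le rfl idx

end Cfsg.Agent.H2.SU4
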