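import Cfsg.Agent.H2.SU4.Plane

set_option autoImplicit false

/-!
Conjuncts (2) and (4) of the geometric list for `SU(4, q)` in their stated form.
-/

namespace Cfsg.Agent.H2.SU4

variable {F : Type*} [Field F] [Fintype F] {q : ℕ}

theorem su4_conjunct_two (hF : Fintype.card F = q ^ 2) :
    ∀ W : Submodule F (Fin 4 → F), W ≠ ⊥ → Cfsg.Geo.IsNondegenerateOn (Cfsg.hermForm 4 F q) W →
      2 * Module.finrank F W < 4 → Cfsg.Geo.IsMaximalIn (Cfsg.GU 4 F q ⊓ Cfsg.Geo.specialLinear (Fin 4) F)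
        (Cfsg.Geo.subspaceStabilizer W ⊓ (Cfsg.GU 4 F q ⊓ Cfsg.Geo.specialLinear (Fin 4) F)) := by
  intro W hW0 hW hd
  refine su_stab_point_maximal hF le_rfl W (perp_cond_of_nondegenerate hF hW) ?_
  have : Module.finrank F W ≠ 0 := fun h => hW0 (Submodule.finrank_eq_zero.mp h)
  omega

theorem su4_conjunct_four (hF : Fintype.card F = q ^ 2) :
    3 ≤ q → ∀ D : Fin 2 → Submodule F (Fin 4 → F),
      Cfsg.Geo.IsNondegenerateMDecomposition (Cfsg.hermForm 4 F q) 2 D →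
      Cfsg.Geo.IsMaximalIn (Cfsg.GU 4 F q ⊓ Cfsg.Geo.specialLinear (Fin 4) F)
        (Cfsg.Geo.decompositionStabilizer D ⊓ (Cfsg.GU 4 F q ⊓ Cfsg.Geo.specialLinear (Fin 4) F)) :=
  fun h3 D hD => su4_planes_maximal hF h3 D hD

end Cfsg.Agent.H2.SU4
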