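import Cfsg.Agent.H2.SU4.MonoSpread

set_option autoImplicit false
set_option linter.unusedSectionVars false

/-!
For `q ≠ 3` the stabiliser in `SU(4, q)` of four orthogonal non-degenerate lines is maximal.
-/

namespace Cfsg.Agent.H2.SU4

open scoped Matrix Classical
open Cfsg.Agent.H98 Cfsg.Agent.H3 Cfsg.Agent.H60.SULow

/-- Over four elements an overgroup of the monomial group with a mixed column is `SU`. -/
theorem su_le_of_column_two {F : Type*} [Field F] [Fintype F] {n : ℕ} (hF : Fintype.card F = 2 ^ 2) (hn : n = 4)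
    {M : Subgroup (GL (Fin n) F)} (hMK : M ≤ Cfsg.GU n F 2 ⊓ Cfsg.Geo.specialLinear (Fin n) F)
    (hdiag : HasDiag 2 M)
    (hW : ∀ (i j : Fin n) (a b : F), i ≠ j → a ^ (2 + 1) + b ^ (2 + 1) = 0 →
      (a • Pi.single i 1 + b • Pi.single j 1 : Fin n → F) ∈ Herm.centres (Herm.isUnitary_std (n := n) hF) M)
    {g : GL (Fin n) F} (hg : g ∈ M) {i : Fin n}
    (hgi : ¬ IsAxis ((g : Matrix (Fin n) (Fin n) F) *ᵥ Pi.single i 1)) :
    Cfsg.GU n F 2 ⊓ Cfsg.Geo.specialLinear (Fin n) F ≤ M := by
  have hf := Herm.isUnitary_std (n := n) hF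
  have h2 : (2 : F) = 0 := four_two_eq_zero hF
  haveI : CharP F 2 := charP_of_card_eq_prime_pow (f := 2) hF
  have hiso : ∀ m ∈ M, ∀ a b, Cfsg.hermForm n F 2 ((m : Matrix (Fin n) (Fin n) F) *ᵥ a)
      ((m : Matrix (Fin n) (Fin n) F) *ᵥ b) = Cfsg.hermForm n F 2 a b := fun m hm => (hMK hm).1
  let sp : (Fin n → F) → Finset (Fin n) := fun v => Finset.univ.filter fun l => v l ≠ 0
  have hsp : ∀ v l, l ∈ sp v ↔ v l ≠ 0 := fun v l => by simp [sp]
  have hle4 : ∀ v, (sp v).card ≤ 4 := fun v => le_trans (Finset.card_le_univ _) (by simp [hn])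
  have heven : ∀ v, Cfsg.hermForm n F 2 v v = 0 → 2 ∣ (sp v).card := fun v hv => by
    rw [herm_self_eq_card hF] at hv; exact (CharP.cast_eq_zero_iff F 2 _).mp hv
  -- some centre has no zero entry
  obtain ⟨c, hc, hcf⟩ : ∃ c ∈ Herm.centres hf M, ∀ l, c l ≠ 0 := by
    by_contra hc
    push Not at hc
    set u := (g : Matrix (Fin n) (Fin n) F) *ᵥ Pi.single i 1 with hu
    have hodd : ¬ 2 ∣ (sp u).card := fun hev => by
      have h1 : Cfsg.hermForm n F 2 u u = 1 := by
        rw [hu, hiso g hg, herm_single_right hF, Pi.single_eq_same]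
      rw [herm_self_eq_card hF] at h1
      exact one_ne_zero (α := F) (h1.symm.trans ((CharP.cast_eq_zero_iff F 2 _).mpr hev))
    have hu2 : 1 < (sp u).card := by
      unfold IsAxis at hgi
      push Not at hgi
      obtain ⟨p, o, hp, ho, hpo⟩ := hgi
      exact Finset.one_lt_card_iff.mpr ⟨p, o, (hsp u p).mpr hp, (hsp u o).mpr ho, hpo⟩
    have hu3 : (sp u).card = 3 := by have := hle4 u; omega
    obtain ⟨z, -, hz⟩ := Finset.exists_mem_notMem_of_card_lt_card (s := sp u) (t := Finset.univ) (by simp; omega)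
    rw [hsp, not_not] at hz
    obtain ⟨j, hj⟩ : ∃ j, ((g : Matrix (Fin n) (Fin n) F) *ᵥ Pi.single j 1) z ≠ 0 := by
      obtain ⟨j, hj⟩ := Function.ne_iff.mp (gl_single_ne_zero g⁻¹ z)
      refine ⟨j, fun h0 => hj ?_⟩
      rw [inv_entry hF (hMK hg).1, h0, zero_pow two_ne_zero]; rfl
    have hji : j ≠ i := fun e => hj (by rw [e, ← hu]; exact hz)
    set v := (g : Matrix (Fin n) (Fin n) F) *ᵥ Pi.single j 1 with hv
    have hC : ∀ a : F, a ^ 3 = 1 → u + a • v ∈ Herm.centres hf M := fun a ha => by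
      have hw2 := hW i j 1 a (Ne.symm hji) (by rw [one_pow]; linear_combination ha + h2)
      have := Herm.centres_conj hf hiso hg hw2
      rwa [one_smul, Matrix.mulVec_add, Matrix.mulVec_smul] at this
    obtain ⟨w, hw0, hw1, -, hw3⟩ := exists_omega_two hF
    have hS : ∀ a : F, a ^ 3 = 1 → 2 ≤ (sp u \ sp (u + a • v)).card := fun a ha => by
      have ha0 : a ≠ 0 := fun h0 => by rw [h0] at ha; simp at ha
      have hzin : z ∈ sp (u + a • v) := by rw [hsp]; simp [hz, ha0, hj]
      obtain ⟨l, hl⟩ := hc _ (hC a ha)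
      have hlt : (sp (u + a • v)).card < 4 := lt_of_lt_of_le (Finset.card_lt_univ_of_notMem (x := l)
        (by rw [hsp, not_not]; exact hl)) (by simp [hn])
      have hev := heven _ (hC a ha).1
      have hpos := Finset.card_pos.mpr ⟨z, hzin⟩
      have hint : (sp (u + a • v) ∩ sp u).card + 1 ≤ (sp (u + a • v)).card := by
        have : sp (u + a • v) ∩ sp u ⊆ (sp (u + a • v)).erase z := fun k hk => by
          rw [Finset.mem_inter] at hk
          exact Finset.mem_erase.mpr ⟨fun e => (hsp u k).mp hk.2 (e ▸ hz), hk.1⟩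
        have := Finset.card_le_card this
        rw [Finset.card_erase_of_mem hzin] at this
        omega
      have := Finset.card_sdiff_add_card_inter (sp u) (sp (u + a • v))
      rw [Finset.inter_comm] at this
      omega
    have h1 := hS 1 (one_pow 3)
    have h3 := hS w hw3
    have hdis : Disjoint (sp u \ sp (u + (1 : F) • v)) (sp u \ sp (u + w • v)) := by
      rw [Finset.disjoint_left]
      intro k hk hk'
      rw [Finset.mem_sdiff, hsp, hsp, not_not] at hk hk'
      simp only [Pi.add_apply, Pi.smul_apply, smul_eq_mul] at hk hk'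
      have h4 : (1 - w) * v k = 0 := by linear_combination hk.2 - hk'.2
      have h5 := (mul_eq_zero.mp h4).resolve_left (sub_ne_zero.mpr (Ne.symm hw1))
      exact hk.1 (by linear_combination hk.2 - h5)
    have h6 := Finset.card_le_card (Finset.union_subset (Finset.sdiff_subset (s := sp u) (t := sp (u + (1 : F) • v)))
      (Finset.sdiff_subset (s := sp u) (t := sp (u + w • v))))
    rw [Finset.card_union_of_disjoint hdis] at h6
    omega
  -- hence every singular vector is a centre
  refine Herm.su_le_of_uT hF (by omega) fun v hvv d hd => ?_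
  suffices hall : v ∈ Herm.centres hf M by
    obtain ⟨_, hv'⟩ := hall
    exact hv' d hd
  rcases Nat.eq_zero_or_pos (sp v).card with h0 | h0
  · have hv0 : v = (0 : F) • c := funext fun l => by
      have := Finset.eq_empty_iff_forall_notMem.mp (Finset.card_eq_zero.mp h0) l
      rw [hsp, not_not] at this
      simp [this]
    rw [hv0]
    exact Herm.centres_smul hf hc 0
  have hev := heven v hvv
  have hle := hle4 v
  rcases (show (sp v).card = 2 ∨ (sp v).card = 4 by omega) with hc2 | hc4
  · obtain ⟨p, o, hpo, hsupp⟩ := Finset.card_eq_two.mp hc2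
    have hmem : ∀ l, v l ≠ 0 ↔ l = p ∨ l = o := fun l => by rw [← hsp, hsupp]; simp
    have hp : v p ≠ 0 := (hmem p).mpr (Or.inl rfl)
    have ho : v o ≠ 0 := (hmem o).mpr (Or.inr rfl)
    have hveq : v = v p • Pi.single p 1 + v o • Pi.single o 1 :=
      eq_two_coords v hpo fun l h1 h2' => not_not.mp fun hh => by rcases (hmem l).mp hh with e | e <;> simp_all
    rw [hveq]
    exact hW p o _ _ hpo (by rw [four_pow_three hF hp, four_pow_three hF ho]; linear_combination h2)
  · have hvf : ∀ l, v l ≠ 0 := fun l => by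
      rw [← hsp, Finset.eq_univ_of_card (sp v) (by rw [hc4, Fintype.card_fin, hn])]
      exact Finset.mem_univ l
    set P := ∏ l, v l / c l with hP
    have hP0 : P ≠ 0 := Finset.prod_ne_zero_iff.mpr fun l _ => div_ne_zero (hvf l) (hcf l)
    let δ : Fin n → F := fun l => P⁻¹ * (v l / c l)
    have hδ0 : ∀ l, δ l ≠ 0 := fun l => mul_ne_zero (inv_ne_zero hP0) (div_ne_zero (hvf l) (hcf l))
    have hδp : ∏ l, δ l = 1 := by
      rw [Finset.prod_mul_distrib, Finset.prod_const, Finset.card_univ, Fintype.card_fin, ← hP, hn,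
        show (P⁻¹) ^ 4 * P = (P⁻¹) ^ 3 * (P⁻¹ * P) by ring, inv_mul_cancel₀ hP0, mul_one,
        four_pow_three hF (inv_ne_zero hP0)]
    have h1 := Herm.centres_smul hf (Herm.centres_conj hf hiso
      (hdiag δ (fun l => four_pow_three hF (hδ0 l)) hδp) hc) P
    convert h1 using 1
    funext l
    simp only [guDiag, Matrix.mulVec_diagonal, Pi.smul_apply, smul_eq_mul, δ]
    rw [← mul_assoc, ← mul_assoc, mul_inv_cancel₀ hP0, one_mul, div_mul_cancel₀ _ (hcf l)]

variable {F : Type*} [Field F] [Fintype F] {q n t k : ℕ}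

local notation "Mat" => Matrix (Fin n) (Fin n) F
local notation "h" => Cfsg.hermForm n F q
local notation "G₁" => Cfsg.GU n F q ⊓ Cfsg.Geo.specialLinear (Fin n) F

variable {M : Subgroup (GL (Fin n) F)} (hF : Fintype.card F = q ^ 2)
include hF

/-- A stabiliser of a coordinate decomposition does not exhaust `SU`. -/
theorem std_proper₄ (hn : 4 ≤ n) (ht : 2 ≤ t) (hk : 0 < k)
    (idx : Fin t × Fin k ≃ Fin n) :
    ∃ x ∈ G₁, x ∉ Cfsg.Geo.decompositionStabilizer (stdDec F idx) ⊓ G₁ := by
  classical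
  have hf := Herm.isUnitary_std (n := n) hF
  let b : Fin n := idx (⟨0, by omega⟩, ⟨0, hk⟩)
  let c : Fin n := idx (⟨1, by omega⟩, ⟨0, hk⟩)
  have hbc : b ≠ c := fun e => by simpa using idx.injective e
  obtain ⟨a, ha⟩ := Finset.exists_mem_notMem_of_card_lt_card (s := ({b, c} : Finset (Fin n))) (t := Finset.univ)
    (lt_of_le_of_lt Finset.card_le_two (by simp; omega))
  obtain ⟨d, hd⟩ := Finset.exists_mem_notMem_of_card_lt_card (s := ({b, c, a} : Finset (Fin n))) (t := Finset.univ)
    (lt_of_le_of_lt Finset.card_le_three (by simp; omega))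
  simp only [Finset.mem_insert, Finset.mem_singleton, not_or, Finset.mem_univ, true_and] at ha hd
  obtain ⟨ν, hν⟩ := exists_norm_eq hF (μ := (-1 : F)) (by rw [← conjQ_apply hF, map_neg, map_one])
  have hν' : ν * ν ^ q = -1 := by rw [← pow_succ', hν]
  have hν0 : ν ≠ 0 := fun h0 => by simp [h0] at hν'
  obtain ⟨ζ, hζ, hζ0⟩ : ∃ ζ : F, Herm.frobQ hF ζ = -ζ ∧ ζ ≠ 0 := by
    obtain ⟨ζ, h0, h1⟩ := Herm.exists_skew hf; exact ⟨ζ, h1, h0⟩
  set v : Fin n → F := Pi.single a 1 + ν • Pi.single b 1 + (Pi.single c 1 + ν • Pi.single d 1) with hv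
  have hq0 : q ≠ 0 := by have := two_le_q hF; omega
  have hvv : h v v = 0 := by
    simp [hv, hermForm_add_left hF, hermForm_add_right hF, hermForm_smul_left hF, hermForm_smul_right hF,
      hermForm_single_left, Pi.single_apply, hbc, hbc.symm, ha.1, ha.2, Ne.symm ha.1, Ne.symm ha.2, hd.1, hd.2.1,
      hd.2.2, Ne.symm hd.1, Ne.symm hd.2.1, Ne.symm hd.2.2, zero_pow hq0, hν']
  refine ⟨Herm.uT hf hvv ζ, Herm.uT_mem_su hF hvv hζ, fun hh => ?_⟩
  obtain ⟨τ, hτ⟩ := hh.1
  have himg : (Herm.uT hf hvv ζ : Mat) *ᵥ Pi.single a 1 ∈ stdDec F idx (τ (idx.symm a).1) := by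
    rw [← hτ]
    exact ⟨_, single_mem_stdDec idx a 1, by simp⟩
  rw [Herm.uT_mulVec, hermForm_single_left, one_mul] at himg
  have hva : v a = 1 := by
    simp [hv, Pi.single_apply, ha.1, ha.2, Ne.symm hd.2.2]
  have hb : (idx.symm b).1 = τ (idx.symm a).1 := by
    by_contra hne
    have := himg b hne
    rw [hva, one_pow, mul_one] at this
    simp [hv, Pi.single_apply, Ne.symm ha.1, hbc, Ne.symm hd.1, hζ0, hν0] at this
  have hc : (idx.symm c).1 = τ (idx.symm a).1 := by
    by_contra hne
    have := himg c hne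
    rw [hva, one_pow, mul_one] at this
    simp [hv, Pi.single_apply, Ne.symm ha.2, hbc.symm, Ne.symm hd.2.1, hζ0] at this
  have := hb.trans hc.symm
  simp [b, c] at this


/-- For `q > 2` an overgroup of the monomial group with a mixed element is `SU`. -/
theorem su_le_of_monomial₄ (hn : n = 4) (hq : 4 ≤ q) (hMK : M ≤ G₁) (hmono : ∀ m ∈ G₁, IsMonom m → m ∈ M)
    (hdiag : HasDiag q M) {g : GL (Fin n) F} (hg : g ∈ M) (hgm : ¬ IsMonom g) : G₁ ≤ M := by
  have hf := Herm.isUnitary_std (n := n) hF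
  let l₀ : Fin n := ⟨0, by omega⟩
  have hperm : ∀ π : Equiv.Perm (Fin n), ∃ m ∈ M, ∃ s : Fin n → F, (∀ l, s l ^ (q + 1) = 1) ∧
      ∀ v : Fin n → F, ((m : GL (Fin n) F) : Mat) *ᵥ v = fun l => s l * v (π.symm l) := fun π => by
    obtain ⟨m, hm, s, hs, hmv⟩ := exists_mono hF π l₀
    exact ⟨m, hmono m hm (isMonom_of_mono hmv), s, hs, hmv⟩
  have hs0 : ∀ {a : F}, a ^ (q + 1) = 1 → a ≠ 0 := fun ha h0 => by
    rw [h0, zero_pow (by omega)] at ha; exact zero_ne_one ha
  by_cases hmix : ∃ y ∈ M, ∃ (c a : Fin n) (ρ : F), ((y : GL (Fin n) F) : Mat) *ᵥ Pi.single c 1 =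
      ρ • Pi.single c 1 ∧ ¬ IsAxis ((y : Mat) *ᵥ Pi.single a 1)
  · obtain ⟨y, hy, c, a, ρ, hyc, hya⟩ := hmix
    have hac : a ≠ c := fun e => hya (by rw [e, hyc]; exact isAxis_smul_single ρ c)
    obtain ⟨i, j, hij, hW⟩ := exists_plane_low hF (by omega) hMK hdiag _ c _
      (inO_conj hF hMK (inO_single hF hdiag hac) hy hyc) hya le_rfl
    refine su_le_of_weight_two hF (by omega) (by omega) hMK hdiag fun i' j' a' b' hij' hab => ?_
    let π : Equiv.Perm (Fin n) := Equiv.swap (Equiv.swap i i' j) j' * Equiv.swap i i'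
    have hπi : π i = i' := by
      simp only [π, Equiv.Perm.mul_apply, Equiv.swap_apply_left]
      refine Equiv.swap_apply_of_ne_of_ne (fun e => hij ?_) hij'
      have := congrArg (Equiv.swap i i') e
      rwa [Equiv.swap_apply_self, Equiv.swap_apply_right] at this
    have hπj : π j = j' := by simp [π]
    obtain ⟨m, hm, s, hs, hmv⟩ := hperm π
    have h1 := Herm.centres_conj hf (fun g hg => (hMK hg).1) hm (hW (a' / s i') (b' / s j') (by
      rw [div_pow, div_pow, hs, hs, div_one, div_one]; exact hab))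
    convert h1 using 1
    rw [hmv]
    funext l
    have hli : π.symm l = i ↔ l = i' := by rw [Equiv.symm_apply_eq, hπi]
    have hlj : π.symm l = j ↔ l = j' := by rw [Equiv.symm_apply_eq, hπj]
    by_cases h2 : l = i'
    · subst h2
      simp [hli.mpr rfl, hij, hij', mul_div_cancel₀ _ (hs0 (hs l))]
    by_cases h3 : l = j'
    · subst h3
      simp [hlj.mpr rfl, hij.symm, h2, mul_div_cancel₀ _ (hs0 (hs l))]
    simp [h2, h3, mt hli.mp h2, mt hlj.mp h3]
  exfalso
  push Not at hmix
  have hspread : Spreading M := fun m hm c hc a => by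
    obtain ⟨l, ρ, -, hl⟩ := exists_axis hc (gl_single_ne_zero m c)
    obtain ⟨P, hP, s, hs, hPv⟩ := hperm (Equiv.swap c l)
    have h1 := hmix (P * m) (M.mul_mem hP hm) c a (s c * ρ) (by
      rw [Units.val_mul, ← Matrix.mulVec_mulVec, hl, hPv]
      funext o
      by_cases ho : o = c
      · subst ho; simp
      · have : (Equiv.swap c l) o ≠ l := fun e => ho (by
          have := congrArg (Equiv.swap c l) e
          rwa [Equiv.swap_apply_self, Equiv.swap_apply_right] at this)
        simp [ho, this])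
    intro i j hi hj
    refine (Equiv.swap c l).injective (h1 _ _ ?_ ?_) <;>
      rw [Units.val_mul, ← Matrix.mulVec_mulVec, hPv] <;>
      simp only [Equiv.symm_swap, Equiv.swap_apply_self]
    · exact mul_ne_zero (hs0 (hs _)) hi
    · exact mul_ne_zero (hs0 (hs _)) hj
  exact not_spreading₄ hF hn hq hMK hdiag hmono hspread hg hgm

/-- The stabiliser of a decomposition into four lines is maximal. -/
theorem monomial_std_maximal₄ (hn : n = 4) (hq : q ≠ 3) (ht : 2 ≤ t) (hk : k = 1) (idx : Fin t × Fin k ≃ Fin n) :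
    Cfsg.Geo.IsMaximalIn G₁ (Cfsg.Geo.decompositionStabilizer (stdDec F idx) ⊓ G₁) := by
  subst hk
  refine isMaximalIn_of inf_le_right (std_proper₄ hF (by omega) ht one_pos idx) fun M hHM hMK g hg hgH => ?_
  have hdiag := hasDiag_of_le hHM
  let b : Fin t → Fin n := fun i => idx (i, 0)
  have hb : ∀ l, b (idx.symm l).1 = l := fun l => by
    simp only [b]
    rw [show ((idx.symm l).1, (0 : Fin 1)) = idx.symm l from Prod.ext rfl (Subsingleton.elim _ _),
      Equiv.apply_symm_apply]
  have hstab : ∀ m ∈ G₁, IsMonom m → m ∈ Cfsg.Geo.decompositionStabilizer (stdDec F idx) := by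
    intro m hm hmon
    choose π a ha hπ using fun l => exists_axis (hmon l) (gl_single_ne_zero m l)
    have hinj : Function.Injective π := fun l l' he => by
      by_contra hne
      have h1 : (m : Mat) *ᵥ (a l' • Pi.single l 1 - a l • Pi.single l' 1) = (m : Mat) *ᵥ 0 := by
        rw [Matrix.mulVec_sub, Matrix.mulVec_smul, Matrix.mulVec_smul, hπ, hπ, he, Matrix.mulVec_zero, smul_smul,
          smul_smul, mul_comm, sub_self]
      simpa [hne, ha l'] using congrFun (gl_mulVec_injective m h1) l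
    let p : Equiv.Perm (Fin n) := Equiv.ofBijective π (Finite.injective_iff_bijective.mp hinj)
    obtain ⟨m₀, -, s, hs, hm₀⟩ := exists_mono hF p ⟨0, by omega⟩
    have hs0 : ∀ l, s l ≠ 0 := fun l h0 => by
      have := hs l; rw [h0, zero_pow (by omega)] at this; exact zero_ne_one this
    let e : Fin t ≃ Fin n := (Equiv.prodUnique (Fin t) (Fin 1)).symm.trans idx
    have h0 : m₀ ∈ Cfsg.Geo.decompositionStabilizer (stdDec F idx) := by
      refine mono_stab idx p ((e.trans p).trans e.symm) (fun l => ?_) hs0 hm₀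
      have : e (idx.symm l).1 = l := hb l
      simp only [Equiv.trans_apply, this]
      rfl
    have h1 : m₀⁻¹ * m ∈ Cfsg.Geo.decompositionStabilizer (stdDec F idx) := by
      refine stab_of_members fun i w hw => ?_
      have hw' : w = w (b i) • Pi.single (b i) 1 := by
        funext l
        by_cases hl : l = b i
        · subst hl; simp
        · rw [hw l (fun e => hl (by rw [← hb l, e]))]; simp [hl]
      rw [hw', Units.val_mul, ← Matrix.mulVec_mulVec, Matrix.mulVec_smul, hπ]
      have h2 : (m₀ : Mat) *ᵥ Pi.single (b i) 1 = s (π (b i)) • Pi.single (π (b i)) 1 := by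
        rw [hm₀]
        funext l
        by_cases hl : l = π (b i)
        · subst hl; simp [show p.symm (π (b i)) = b i from p.symm_apply_apply _]
        · have : p.symm l ≠ b i := fun e => hl (by rw [← e]; exact (p.apply_symm_apply l).symm)
          simp [hl, this]
      have h3 : ((m₀⁻¹ : GL (Fin n) F) : Mat) *ᵥ Pi.single (π (b i)) 1 = (s (π (b i)))⁻¹ • Pi.single (b i) 1 := by
        have := gl_inv_mulVec m₀ (Pi.single (b i) 1)
        rw [h2, Matrix.mulVec_smul] at this
        rw [← this, smul_smul, inv_mul_cancel₀ (hs0 _), one_smul]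
      rw [Matrix.mulVec_smul, Matrix.mulVec_smul, h3]
      refine Submodule.smul_mem _ _ (Submodule.smul_mem _ _ (Submodule.smul_mem _ _ ?_))
      have := single_mem_stdDec (F := F) idx (b i) 1
      simpa [b] using this
    simpa using Subgroup.mul_mem _ h0 h1
  have hmono : ∀ m ∈ G₁, IsMonom m → m ∈ M := fun m hm hmon => hHM ⟨hstab m hm hmon, hm⟩
  have hgm : ¬ IsMonom g := fun hh => hgH ⟨hstab g (hMK hg) hh, hMK hg⟩
  by_cases hq2 : q = 2
  · unfold IsMonom at hgm
    push Not at hgm
    obtain ⟨l, hl⟩ := hgm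
    subst hq2
    exact su_le_of_column_two hF hn hMK hdiag (weight_two_centres hF rfl hMK hmono) hg hl
  · exact su_le_of_monomial₄ hF hn (by have := two_le_q hF; omega) hMK hmono hdiag hg hgm

end Cfsg.Agent.H2.SU4
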