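import Cfsg.Agent.H2.SU4.TraceDouble

set_option autoImplicit false
set_option linter.unusedSectionVars false

/-!
Mixed elements over the monomial subgroup of `SU(4, q)`, `q ≥ 4`, cannot spread: a double transposition gives a
mixed element with a zero entry, and a homology through that zero gives a contradiction.
-/

namespace Cfsg.Agent.H2.SU4

open scoped Matrix Classical
open Cfsg.Agent.H98 Cfsg.Agent.H3 Cfsg.Agent.H60.SULow

variable {F : Type*} [Field F] [Fintype F] {q n : ℕ}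

local notation "Mat" => Matrix (Fin n) (Fin n) F
local notation "h" => Cfsg.hermForm n F q
local notation "G₁" => Cfsg.GU n F q ⊓ Cfsg.Geo.specialLinear (Fin n) F

variable (hF : Fintype.card F = q ^ 2)
include hF

/-- Conjugate of a scalar compensated in one coordinate. -/
theorem conj_homology {g : GL (Fin n) F} (hgU : g ∈ Cfsg.GU n F q) {d : Fin n} {η θ : F}
    {δ : Fin n → F} (hδ : ∀ l, δ l ^ (q + 1) = 1) (hd : δ d = η * θ) (ho : ∀ l, l ≠ d → δ l = η)
    (v : Fin n → F) :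
    ((g * (guDiag (q := q) δ hδ).1 * g⁻¹ : GL (Fin n) F) : Mat) *ᵥ v =
      η • v + (η * (θ - 1) * h v ((g : Mat) *ᵥ Pi.single d 1)) • (g : Mat) *ᵥ Pi.single d 1 := by
  rw [Units.val_mul, Units.val_mul, ← Matrix.mulVec_mulVec, ← Matrix.mulVec_mulVec, herm_image hF hgU]
  set w := ((g⁻¹ : GL (Fin n) F) : Mat) *ᵥ v with hw
  have hdw : ((guDiag (q := q) δ hδ).1 : Mat) *ᵥ w = η • w + (η * (θ - 1) * w d) • Pi.single d 1 := by
    ext l
    by_cases h1 : l = d
    · subst h1; simp [guDiag, Matrix.mulVec_diagonal, hd]; ring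
    simp [guDiag, Matrix.mulVec_diagonal, ho l h1, h1]
  rw [hdw, Matrix.mulVec_add, Matrix.mulVec_smul, Matrix.mulVec_smul, hw, gl_mulVec_inv]

/-- A norm-one scalar whose fourth power is not one. -/
theorem exists_norm_one_pow_four (hq : 4 ≤ q) : ∃ η : F, η ^ (q + 1) = 1 ∧ η ^ 4 ≠ 1 := by
  by_contra hall
  push Not at hall
  have h1 : (normOne q F).card ≤ (Polynomial.nthRootsFinset 4 (1 : F)).card :=
    Finset.card_le_card fun a ha =>
      (Polynomial.mem_nthRootsFinset (by omega) _).mpr (hall a (mem_normOne.mp ha))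
  have h2 : (Polynomial.nthRootsFinset 4 (1 : F)).card ≤ 4 := by
    rw [Polynomial.nthRootsFinset_def]
    exact (Multiset.toFinset_card_le _).trans (Polynomial.card_nthRoots _ _)
  rw [card_normOne hF] at h1
  omega

/-- In dimension four a mixed element of a spreading group has no zero entry. -/
theorem zero_absurd (hn : n = 4) (hq : 4 ≤ q) {M : Subgroup (GL (Fin n) F)} (hMK : M ≤ G₁) (hdiag : HasDiag q M)
    (hspread : Spreading M) {g : GL (Fin n) F} (hg : g ∈ M) (hgm : ¬ IsMonom g) {c d : Fin n}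
    (hcd : ((g : Mat) *ᵥ Pi.single d 1) c = 0) : False := by
  have hq0 : q ≠ 0 := by omega
  obtain ⟨η, hη, hη4⟩ := exists_norm_one_pow_four hF hq
  have hηη := norm_one_conj hF hη
  set θ := (η ^ q) ^ n with hθ
  have hθn : θ ^ (q + 1) = 1 := by
    rw [hθ, ← pow_mul, ← pow_mul, show q * (n * (q + 1)) = (q + 1) * (q * n) by ring, pow_mul, hη, one_pow]
  have hθθ : η ^ n * θ = 1 := by rw [hθ, ← mul_pow, hηη, one_pow]
  have hθ1 : θ ≠ 1 := fun h0 => hη4 (by rw [h0, mul_one, hn] at hθθ; exact hθθ)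
  let δ : Fin n → F := fun l => η * if l = d then θ else 1
  have hδ : ∀ l, δ l ^ (q + 1) = 1 := fun l => by
    simp only [δ, mul_pow, hη, one_mul]
    split_ifs
    · exact hθn
    · exact one_pow _
  have hδp : ∏ l, δ l = 1 := by
    simp only [δ, Finset.prod_mul_distrib, Finset.prod_const, Finset.card_univ, Fintype.card_fin,
      Finset.prod_ite_eq', Finset.mem_univ, if_true]
    exact hθθ
  have hgI : ∀ a b, h ((g : Mat) *ᵥ a) ((g : Mat) *ᵥ b) = h a b := (hMK hg).1
  set y := g * (guDiag (q := q) δ hδ).1 * g⁻¹ with hy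
  have hyM : y ∈ M := M.mul_mem (M.mul_mem hg (hdiag δ hδ hδp)) (M.inv_mem hg)
  set r := (g : Mat) *ᵥ Pi.single d 1 with hr
  have hyv : ∀ v, (y : Mat) *ᵥ v = η • v + (η * (θ - 1) * h v r) • r := fun v =>
    conj_homology hF (hMK hg).1 hδ (by simp [δ]) (fun l hl => by simp [δ, hl]) v
  have hmon : IsMonom y := hspread y hyM c (by
    rw [hyv, hermForm_single_left, hcd, zero_pow hq0]
    simpa using isAxis_smul_single η c)
  obtain ⟨p, o, hp, ho, hpo⟩ : ∃ p o, r p ≠ 0 ∧ r o ≠ 0 ∧ p ≠ o := by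
    have hax : ¬ IsAxis r := fun hh => hgm (hspread g hg d hh)
    unfold IsAxis at hax
    push Not at hax
    exact hax
  have hη0 : η ≠ 0 := left_ne_zero_of_mul (by rw [hηη]; exact one_ne_zero)
  have hne : ∀ z, z ≠ p → r z ≠ 0 → ((y : Mat) *ᵥ Pi.single p 1) z ≠ 0 := fun z hz hrz => by
    rw [hyv, hermForm_single_left, one_mul]
    simp only [Pi.add_apply, Pi.smul_apply, Pi.single_eq_of_ne hz, smul_eq_mul, mul_zero, zero_add]
    exact mul_ne_zero (mul_ne_zero (mul_ne_zero hη0 (sub_ne_zero.mpr hθ1)) (pow_ne_zero q hp)) hrz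
  have hsupp : ∀ z, z ≠ p → z ≠ o → r z = 0 := fun z hzp hzo => by
    by_contra hrz
    exact hzo (hmon p z o (hne z hzp hrz) (hne o hpo.symm ho))
  obtain ⟨c', -, hc'⟩ := Finset.exists_mem_notMem_of_card_lt_card (s := ({c, p, o} : Finset (Fin n)))
    (t := Finset.univ) (lt_of_le_of_lt Finset.card_le_three (by simp; omega))
  simp only [Finset.mem_insert, Finset.mem_singleton, not_or] at hc'
  -- the row through `d` of the inverse has two zeros
  have hxI : ∀ a b, h (((g⁻¹ : GL (Fin n) F) : Mat) *ᵥ a) (((g⁻¹ : GL (Fin n) F) : Mat) *ᵥ b) = h a b :=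
    (Cfsg.GU n F q).inv_mem (hMK hg).1
  have hxm : ¬ IsMonom g⁻¹ := fun h' => hgm (monom_inv h')
  set u := ((g⁻¹ : GL (Fin n) F) : Mat) *ᵥ Pi.single c 1 with hu
  set u' := ((g⁻¹ : GL (Fin n) F) : Mat) *ᵥ Pi.single c' 1 with hu'
  have hud : u d = 0 := by rw [hu, inv_entry hF (hMK hg).1, ← hr, hcd, zero_pow hq0]
  have hu'd : u' d = 0 := by
    rw [hu', inv_entry hF (hMK hg).1, ← hr, hsupp c' hc'.2.1 hc'.2.2, zero_pow hq0]
  obtain ⟨hcard, -⟩ := two_zeros_two hF hMK hdiag hspread (by omega) (M.inv_mem hg) hxm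
    (c := d) (Ne.symm hc'.1) hud hu'd
  obtain ⟨-, hsub'⟩ := two_zeros_two hF hMK hdiag hspread (by omega) (M.inv_mem hg) hxm (c := d) hc'.1 hu'd hud
  rw [← hu] at hcard
  obtain ⟨k, l, hk, hl, hkl⟩ : ∃ k l, u k ≠ 0 ∧ u l ≠ 0 ∧ k ≠ l := by
    have hax : ¬ IsAxis u := fun hh => hxm (hspread _ (M.inv_mem hg) c hh)
    unfold IsAxis at hax
    push Not at hax
    exact hax
  have husupp : ∀ z, z ≠ k → z ≠ l → u z = 0 := fun z h1 h2 => by
    by_contra hz
    have := Finset.card_le_card (s := ({k, l, z} : Finset (Fin n)))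
      (t := Finset.univ.filter fun w => u w ≠ 0) (fun w hw => by
        simp only [Finset.mem_insert, Finset.mem_singleton] at hw
        rw [Finset.mem_filter]
        rcases hw with rfl | rfl | rfl <;> exact ⟨Finset.mem_univ _, by assumption⟩)
    rw [Finset.card_eq_three.mpr ⟨k, l, z, hkl, Ne.symm h1, Ne.symm h2, rfl⟩] at this
    omega
  have hu'supp : ∀ z, z ≠ k → z ≠ l → u' z = 0 := fun z h1 h2 => by
    by_contra hz
    exact hsub' z hz (husupp z h1 h2)
  have hsum : ∀ v w : Fin n → F, (∀ z, z ≠ k → z ≠ l → w z = 0) →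
      h v w = v k * w k ^ q + v l * w l ^ q := fun v w hw => by
    rw [Cfsg.hermForm]
    exact Fintype.sum_eq_add k l hkl fun z hz => by rw [hw z hz.1 hz.2, zero_pow hq0, mul_zero]
  have e1 : u k * u k ^ q + u l * u l ^ q = 1 := by
    rw [← hsum u u husupp, hu, hxI, herm_single_right hF, Pi.single_eq_same]
  have e2 : u' k * u' k ^ q + u' l * u' l ^ q = 1 := by
    rw [← hsum u' u' hu'supp, hu', hxI, herm_single_right hF, Pi.single_eq_same]
  have e3 : u k * u' k ^ q + u l * u' l ^ q = 0 := by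
    rw [← hsum u u' hu'supp, hu, hu', hxI, herm_single_right hF, Pi.single_eq_of_ne hc'.1]
  have e4 : u k ^ q * u' k + u l ^ q * u' l = 0 := by
    have := congrArg (fun z : F => z ^ q) e3
    simpa only [add_pow_q hF, mul_pow, pow_q_pow_q hF, zero_pow hq0] using this
  let δ' : Fin n → F := fun z => if z = c then η else if z = c' then η ^ q else 1
  have hδ' : ∀ z, δ' z ^ (q + 1) = 1 := fun z => by
    simp only [δ']
    split_ifs
    · exact hη
    · rw [← pow_mul, mul_comm, pow_mul, hη, one_pow]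
    · exact one_pow _
  have hδ'p : ∏ z, δ' z = 1 := by
    rw [Fintype.prod_eq_mul c c' (Ne.symm hc'.1) fun z hz => by simp [δ', hz.1, hz.2]]
    simp [δ', hc'.1, hηη]
  set x := g⁻¹ * (guDiag (q := q) δ' hδ').1 * (g⁻¹)⁻¹ with hx
  have hxv : ∀ v, (x : Mat) *ᵥ v = v + ((η - 1) * h v u) • u + ((η ^ q - 1) * h v u') • u' := fun v =>
    conj_pair hF ((Cfsg.GU n F q).inv_mem (hMK hg).1) (Ne.symm hc'.1) hδ' (by simp [δ'])
      (by simp [δ', hc'.1]) (fun z h1 h2 => by simp [δ', h1, h2]) v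
  have hxmon : IsMonom x := hspread x
    (M.mul_mem (M.mul_mem (M.inv_mem hg) (hdiag δ' hδ' hδ'p)) (M.inv_mem (M.inv_mem hg))) d (by
      rw [hxv, hermForm_single_left, hermForm_single_left, hud, hu'd, zero_pow hq0]
      simpa using isAxis_single d)
  have hη2 : η ^ q ≠ η := fun e => hη4 (by
    rw [e] at hηη
    linear_combination (η * η + 1) * hηη)
  by_cases hE : ((x : Mat) *ᵥ Pi.single k 1) l = 0
  · rw [hxv, hermForm_single_left, hermForm_single_left] at hE
    simp only [Pi.add_apply, Pi.smul_apply, Pi.single_eq_of_ne hkl.symm, smul_eq_mul, one_mul, zero_add] at hE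
    have h1 : u k ^ q * u l = η ^ q * (u' k ^ q * u' l) := by
      have : (η - 1) * (u k ^ q * u l - η ^ q * (u' k ^ q * u' l)) = 0 := by
        linear_combination hE - (u' k ^ q * u' l) * hηη
      exact sub_eq_zero.mp ((mul_eq_zero.mp this).resolve_left (sub_ne_zero.mpr fun e => hη4 (by rw [e, one_pow])))
    have h2 : u l ^ q * u l + η ^ q * (u' k ^ q * u' k) = 0 := by
      have : u k ^ q * (u l ^ q * u l + η ^ q * (u' k ^ q * u' k)) = 0 := by
        linear_combination (u l ^ q) * h1 + (η ^ q * u' k ^ q) * e4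
      exact (mul_eq_zero.mp this).resolve_left (pow_ne_zero q hk)
    have h3 := congrArg (fun z : F => z ^ q) h2
    simp only [add_pow_q hF, mul_pow, pow_q_pow_q hF, zero_pow hq0] at h3
    have h4 : (η ^ q - η) * (u' k ^ q * u' k) = 0 := by linear_combination h2 - h3
    rcases mul_eq_zero.mp h4 with h5 | h5
    · exact hη2 (sub_eq_zero.mp h5)
    · rw [h5, mul_zero, add_zero] at h2
      exact mul_ne_zero (pow_ne_zero q hl) hl h2
  · have hD : ((x : Mat) *ᵥ Pi.single k 1) k = 0 := by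
      by_contra hD
      exact hkl (hxmon k k l hD hE)
    rw [hxv, hermForm_single_left, hermForm_single_left] at hD
    simp only [Pi.add_apply, Pi.smul_apply, Pi.single_eq_same, smul_eq_mul, one_mul] at hD
    set N := u k * u k ^ q with hN
    have hNN : u' k * u' k ^ q = 1 - N := by
      rw [hN]
      linear_combination (u l * u l ^ q) * e2 + (1 - u' k * u' k ^ q) * e1 + (u k * u' k ^ q) * e4 - (u l ^ q * u' l) * e3
    have hD' : η * N + η ^ q * (1 - N) = 0 := by
      rw [← hNN, hN]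
      linear_combination hD + hN.symm + hNN
    have hNq : N ^ q = N := by rw [hN, mul_pow, pow_q_pow_q hF, mul_comm]
    have h3 := congrArg (fun z : F => z ^ q) hD'
    simp only [add_pow_q hF, mul_pow, pow_q_pow_q hF, zero_pow hq0, hNq,
      show (1 - N) ^ q = 1 - N by rw [← conjQ_apply hF, map_sub, map_one, conjQ_apply hF, hNq]] at h3
    have h4 : (η * η - η ^ q * η ^ q) * N = 0 := by linear_combination η * hD' - η ^ q * h3
    have h5 : η * η = η ^ q * η ^ q :=
      sub_eq_zero.mp ((mul_eq_zero.mp h4).resolve_right (mul_ne_zero hk (pow_ne_zero q hk)))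
    exact hη4 (by linear_combination (η * η) * h5 + (η * η ^ q + 1) * hηη)

/-- The conjugate of a pair of homologies is not monomial, if the two axes have full support. -/
theorem pair_full (hn : 4 ≤ n) {x : GL (Fin n) F} {r r' : Fin n → F} {α : F} (hα : α ^ (q + 1) = 1)
    (hα2 : α ^ 2 ≠ 1) (hr : ∀ l, r l ≠ 0) (hr' : ∀ l, r' l ≠ 0)
    (hx : ∀ v, (x : Mat) *ᵥ v = v + ((α - 1) * h v r) • r + ((α ^ q - 1) * h v r') • r') : ¬ IsMonom x := by
  intro hmon
  have hq0 : q ≠ 0 := by have := two_le_q hF; omega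
  have hαα := norm_one_conj hF hα
  choose π a ha hπ using fun l => exists_axis (hmon l) (gl_single_ne_zero x l)
  have hinj : Function.Injective π := fun l l' he => by
    by_contra hne
    have h1 : (x : Mat) *ᵥ (a l' • Pi.single l 1 - a l • Pi.single l' 1) = (x : Mat) *ᵥ 0 := by
      rw [Matrix.mulVec_sub, Matrix.mulVec_smul, Matrix.mulVec_smul, hπ, hπ, he, Matrix.mulVec_zero, smul_smul,
        smul_smul, mul_comm, sub_self]
    simpa [hne, ha l'] using congrFun (gl_mulVec_injective x h1) l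
  let p : Equiv.Perm (Fin n) := Equiv.ofBijective π (Finite.injective_iff_bijective.mp hinj)
  let l : Fin n := ⟨0, by omega⟩
  obtain ⟨o, -, ho⟩ := Finset.exists_mem_notMem_of_card_lt_card (s := ({l, π l, p.symm l} : Finset (Fin n)))
    (t := Finset.univ) (lt_of_le_of_lt Finset.card_le_three (by simp; omega))
  simp only [Finset.mem_insert, Finset.mem_singleton, not_or] at ho
  have hpo : π o ≠ l := fun e => ho.2.2 (by rw [Equiv.eq_symm_apply]; exact e)
  have hz : ∀ b c : Fin n, c ≠ π b → ((x : Mat) *ᵥ Pi.single b 1) c = 0 := fun b c hc => by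
    rw [hπ]; simp [hc]
  have h1 := hz l o ho.2.1
  have h2 := hz o l (Ne.symm hpo)
  rw [hx, hermForm_single_left, hermForm_single_left] at h1 h2
  simp only [Pi.add_apply, Pi.smul_apply, Pi.single_eq_of_ne ho.1, Pi.single_eq_of_ne (Ne.symm ho.1), smul_eq_mul,
    one_mul, zero_add] at h1 h2
  have hα1 : α - 1 ≠ 0 := sub_ne_zero.mpr fun e => hα2 (by rw [e, one_pow])
  have e1 : r l ^ q * r o = α ^ q * (r' l ^ q * r' o) := by
    have : (α - 1) * (r l ^ q * r o - α ^ q * (r' l ^ q * r' o)) = 0 := by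
      linear_combination h1 - (r' l ^ q * r' o) * hαα
    exact sub_eq_zero.mp ((mul_eq_zero.mp this).resolve_left hα1)
  have e2 : r o ^ q * r l = α ^ q * (r' o ^ q * r' l) := by
    have : (α - 1) * (r o ^ q * r l - α ^ q * (r' o ^ q * r' l)) = 0 := by
      linear_combination h2 - (r' o ^ q * r' l) * hαα
    exact sub_eq_zero.mp ((mul_eq_zero.mp this).resolve_left hα1)
  have e3 := congrArg (fun z : F => z ^ q) e2
  simp only [mul_pow, pow_q_pow_q hF] at e3
  have e4 : (α ^ q - α) * (r' l ^ q * r' o) = 0 := by linear_combination e3 - e1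
  have e5 := (mul_eq_zero.mp e4).resolve_right (mul_ne_zero (pow_ne_zero q (hr' l)) (hr' o))
  exact hα2 (by linear_combination hαα - α * e5)

/-- In dimension four some mixed element has a zero entry. -/
theorem exists_zero₄ (hn : n = 4) (hq : 4 ≤ q) {M : Subgroup (GL (Fin n) F)} (hMK : M ≤ G₁)
    (hmono : ∀ m ∈ G₁, IsMonom m → m ∈ M) {g : GL (Fin n) F} (hg : g ∈ M) (hgm : ¬ IsMonom g) :
    ∃ x ∈ M, ¬ IsMonom x ∧ ∃ c d, (((x : GL (Fin n) F) : Mat) *ᵥ Pi.single c 1) d = 0 := by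
  by_cases hz : ∃ c d, ((g : Mat) *ᵥ Pi.single c 1) d = 0
  · exact ⟨g, hg, hgm, hz⟩
  push Not at hz
  have hq0 : q ≠ 0 := by omega
  have hgU : g ∈ Cfsg.GU n F q := (hMK hg).1
  let c : Fin n := ⟨0, by omega⟩
  set u := ((g⁻¹ : GL (Fin n) F) : Mat) *ᵥ Pi.single c 1 with hu
  let G : Fin n → F := fun l => ((g : Mat) *ᵥ Pi.single l 1) c
  have hul : ∀ l, u l = G l ^ q := fun l => by rw [hu, inv_entry hF hgU]
  -- the diagonal entries
  have hdiagonal : ∀ i j a b : Fin n, i ≠ j → a ≠ b → i ≠ a → i ≠ b → j ≠ a → j ≠ b → ∀ ν ν' : F,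
      ν ^ (q + 1) = 1 → ν' ^ (q + 1) = 1 → ∃ m ∈ G₁, IsMonom m ∧
        (∀ v l, ((m : GL (Fin n) F) : Mat).mulVec v l = (if l = i then ν * v j else if l = j then ν ^ q * v i else
          if l = a then ν' * v b else if l = b then ν' ^ q * v a else v l)) ∧
        (((g * m * g⁻¹ : GL (Fin n) F) : Mat) *ᵥ Pi.single c 1) c =
          ν * (G i * u j) + (ν * (G i * u j)) ^ q + (ν' * (G a * u b) + (ν' * (G a * u b)) ^ q) := by
    intro i j a b hij hab hia hib hja hjb ν ν' hν hν'
    let s : Fin n → F := fun l =>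
      if l = i then ν else if l = j then ν ^ q else if l = a then ν' else if l = b then ν' ^ q else 1
    have hs : ∀ l, s l ^ (q + 1) = 1 := fun l => by
      simp only [s]
      split_ifs
      · exact hν
      · rw [← pow_mul, mul_comm, pow_mul, hν, one_pow]
      · exact hν'
      · rw [← pow_mul, mul_comm, pow_mul, hν', one_pow]
      · exact one_pow _
    have huniv : (Finset.univ : Finset (Fin n)) = {i, j, a, b} := (Finset.eq_univ_of_card _ (by
      rw [Fintype.card_fin, Finset.card_insert_of_notMem (by simp [hij, hia, hib]),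
        Finset.card_insert_of_notMem (by simp [hja, hjb]), Finset.card_pair hab, hn])).symm
    have hsp : ∏ l, s l = 1 := by
      rw [huniv, Finset.prod_insert (by simp [hij, hia, hib]), Finset.prod_insert (by simp [hja, hjb]),
        Finset.prod_insert (by simp [hab]), Finset.prod_singleton]
      simp only [s, if_true, hij.symm, hia.symm, hja.symm, hib.symm, hjb.symm, hab.symm, if_false]
      linear_combination (ν' * ν' ^ q) * norm_one_conj hF hν + norm_one_conj hF hν'
    set π := Equiv.swap i j * Equiv.swap a b with hπ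
    obtain ⟨m, hm, hmv⟩ := exists_mono_of_prod hF π s hs (by
      rw [hsp, hπ, map_mul, Equiv.Perm.sign_swap hij, Equiv.Perm.sign_swap hab]; norm_num)
    have hπi : π.symm i = j := by rw [Equiv.symm_apply_eq, hπ, Equiv.Perm.mul_apply,
      Equiv.swap_apply_of_ne_of_ne hja hjb, Equiv.swap_apply_right]
    have hπj : π.symm j = i := by rw [Equiv.symm_apply_eq, hπ, Equiv.Perm.mul_apply,
      Equiv.swap_apply_of_ne_of_ne hia hib, Equiv.swap_apply_left]
    have hπa : π.symm a = b := by rw [Equiv.symm_apply_eq, hπ, Equiv.Perm.mul_apply,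
      Equiv.swap_apply_right, Equiv.swap_apply_of_ne_of_ne hia.symm hja.symm]
    have hπb : π.symm b = a := by rw [Equiv.symm_apply_eq, hπ, Equiv.Perm.mul_apply,
      Equiv.swap_apply_left, Equiv.swap_apply_of_ne_of_ne hib.symm hjb.symm]
    have hform : ∀ v l, (m : Mat).mulVec v l = (if l = i then ν * v j else if l = j then ν ^ q * v i else
        if l = a then ν' * v b else if l = b then ν' ^ q * v a else v l) := fun v l => by
      rw [hmv]
      have hl : l = i ∨ l = j ∨ l = a ∨ l = b := by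
        have := huniv ▸ Finset.mem_univ l
        simpa using this
      simp only [s]
      rcases hl with rfl | rfl | rfl | rfl
      · simp [hπi]
      · simp [hij.symm, hπj]
      · simp [hia.symm, hja.symm, hπa]
      · simp [hib.symm, hjb.symm, hab.symm, hπb]
    refine ⟨m, hm, isMonom_of_mono hmv, hform, ?_⟩
    rw [Units.val_mul, Units.val_mul, ← Matrix.mulVec_mulVec, ← Matrix.mulVec_mulVec, ← hu]
    set w := (m : Mat) *ᵥ u with hw
    have hgw : ((g : Mat) *ᵥ w) c = ∑ l, G l * w l := by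
      simp only [G, Matrix.mulVec_single_one]; rfl
    rw [hgw, huniv, Finset.sum_insert (by simp [hij, hia, hib]), Finset.sum_insert (by simp [hja, hjb]),
      Finset.sum_insert (by simp [hab]), Finset.sum_singleton, hw, hform, hform, hform, hform]
    simp only [if_true, hij.symm, hia.symm, hja.symm, hib.symm, hjb.symm, hab.symm, if_false, hul]
    simp only [mul_pow, pow_q_pow_q hF]
    ring
  -- two choices differing by a pair of homologies
  have key : ∀ i j a b : Fin n, i ≠ j → a ≠ b → i ≠ a → i ≠ b → j ≠ a → j ≠ b → ∀ ν₁ ν₂ ν' : F,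
      ν₁ ^ (q + 1) = 1 → ν₂ ^ (q + 1) = 1 → ν' ^ (q + 1) = 1 → ν₁ ≠ ν₂ → ν₁ + ν₂ ≠ 0 →
      ν₁ * (G i * u j) + (ν₁ * (G i * u j)) ^ q + (ν' * (G a * u b) + (ν' * (G a * u b)) ^ q) = 0 →
      ν₂ * (G i * u j) + (ν₂ * (G i * u j)) ^ q + (ν' * (G a * u b) + (ν' * (G a * u b)) ^ q) = 0 →
      ∃ x ∈ M, ¬ IsMonom x ∧ ∃ c d, (((x : GL (Fin n) F) : Mat) *ᵥ Pi.single c 1) d = 0 := by
    intro i j a b hij hab hia hib hja hjb ν₁ ν₂ ν' hν₁ hν₂ hν' hne hne' e₁ e₂
    obtain ⟨m₁, hm₁, hm₁m, hf₁, hc₁⟩ := hdiagonal i j a b hij hab hia hib hja hjb ν₁ ν' hν₁ hν'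
    obtain ⟨m₂, hm₂, hm₂m, hf₂, hc₂⟩ := hdiagonal i j a b hij hab hia hib hja hjb ν₂ ν' hν₂ hν'
    have hy₁ := M.mul_mem (M.mul_mem hg (hmono m₁ hm₁ hm₁m)) (M.inv_mem hg)
    have hy₂ := M.mul_mem (M.mul_mem hg (hmono m₂ hm₂ hm₂m)) (M.inv_mem hg)
    by_cases hm1 : IsMonom (g * m₁ * g⁻¹)
    swap
    · exact ⟨_, hy₁, hm1, c, c, by rw [hc₁, e₁]⟩
    by_cases hm2 : IsMonom (g * m₂ * g⁻¹)
    swap
    · exact ⟨_, hy₂, hm2, c, c, by rw [hc₂, e₂]⟩
    exfalso
    set α := ν₁ * ν₂ ^ q with hα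
    have hν₂ν := norm_one_conj hF hν₂
    have hα1 : α ^ (q + 1) = 1 := by rw [hα, mul_pow, hν₁, ← pow_mul, mul_comm q, pow_mul, hν₂, one_pow, one_mul]
    have hα2 : α ^ 2 ≠ 1 := fun e => by
      have h1 : (ν₁ - ν₂) * (ν₁ + ν₂) = 0 := by
        rw [hα] at e
        linear_combination (ν₂ * ν₂) * e - (ν₁ * ν₁) * (ν₂ * ν₂ ^ q + 1) * hν₂ν
      rcases mul_eq_zero.mp h1 with h2 | h2
      · exact hne (sub_eq_zero.mp h2)
      · exact hne' h2
    let δ : Fin n → F := fun l => if l = i then α else if l = j then α ^ q else 1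
    have hδ : ∀ l, δ l ^ (q + 1) = 1 := fun l => by
      simp only [δ]
      split_ifs
      · exact hα1
      · rw [← pow_mul, mul_comm, pow_mul, hα1, one_pow]
      · exact one_pow _
    have hm12 : (guDiag (q := q) δ hδ).1 * m₂ = m₁ := by
      refine gl_ext fun v => funext fun l => ?_
      rw [Units.val_mul, ← Matrix.mulVec_mulVec]
      simp only [guDiag, Matrix.mulVec_diagonal]
      rw [hf₁, hf₂]
      simp only [δ]
      by_cases h1 : l = i
      · subst h1; simp [hα]; linear_combination (ν₁ * v j) * hν₂ν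
      by_cases h2 : l = j
      · subst h2
        simp [h1, hα, mul_pow, pow_q_pow_q hF]
        linear_combination (ν₁ ^ q * v i) * hν₂ν
      simp [h1, h2]
    have hx : (g * (guDiag (q := q) δ hδ).1 * g⁻¹ : GL (Fin n) F) = g * m₁ * g⁻¹ * (g * m₂ * g⁻¹)⁻¹ := by
      rw [← hm12]; group
    have hmon : IsMonom (g * (guDiag (q := q) δ hδ).1 * g⁻¹) := by
      rw [hx]; exact monom_mul hm1 (monom_inv (by rw [inv_inv]; exact hm2))
    exact pair_full hF (by omega) hα1 hα2 (hz i) (hz j) (conj_pair hF hgU hij hδ (a := α) (by simp [δ])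
      (by simp [δ, hij.symm]) (fun l h1 h2 => by simp [δ, h1, h2])) hmon
  have hne : ∀ l o, G l * u o ≠ 0 := fun l o => by
    rw [hul]; exact mul_ne_zero (hz l c) (pow_ne_zero q (hz o c))
  -- a pair of coordinates
  have hrest : ∀ i j : Fin n, i ≠ j → ∃ a b, a ≠ b ∧ i ≠ a ∧ i ≠ b ∧ j ≠ a ∧ j ≠ b := by
    intro i j hij
    obtain ⟨a, -, ha⟩ := Finset.exists_mem_notMem_of_card_lt_card (s := ({i, j} : Finset (Fin n)))
      (t := Finset.univ) (lt_of_le_of_lt Finset.card_le_two (by simp; omega))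
    obtain ⟨b, -, hb⟩ := Finset.exists_mem_notMem_of_card_lt_card (s := ({i, j, a} : Finset (Fin n)))
      (t := Finset.univ) (lt_of_le_of_lt Finset.card_le_three (by simp; omega))
    simp only [Finset.mem_insert, Finset.mem_singleton, not_or] at ha hb
    exact ⟨a, b, Ne.symm hb.2.2, Ne.symm ha.1, Ne.symm hb.1, Ne.symm ha.2, Ne.symm hb.2.1⟩
  let e₀ : Fin n := ⟨1, by omega⟩
  let e₁ : Fin n := ⟨2, by omega⟩
  let e₂ : Fin n := ⟨3, by omega⟩
  by_cases h2 : (2 : F) = 0
  · obtain ⟨a, b, hab, hia, hib, hja, hjb⟩ := hrest e₀ e₁ (by simp [e₀, e₁])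
    have hneq : ∀ {x y : F}, x ≠ y → x + y ≠ 0 := fun {x y} hxy h0 => hxy (by linear_combination h0 - y * h2)
    rcases exists_double hF (hne e₀ e₁) (hne a b) (z := 0) (zero_pow hq0) with
      ⟨ν₁, ν₂, ν', h1, h2', h3, h4, h5, h6⟩ | ⟨ν₁, ν₂, ν', h1, h2', h3, h4, h5, h6⟩
    · exact key e₀ e₁ a b (by simp [e₀, e₁]) hab hia hib hja hjb ν₁ ν₂ ν' h1 h2' h3 h4 (hneq h4) h5 h6
    · exact key a b e₀ e₁ hab (by simp [e₀, e₁]) hia.symm hja.symm hib.symm hjb.symm ν₁ ν₂ ν' h1 h2' h3 h4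
        (hneq h4) h5 h6
  -- in odd characteristic two of three squares classes agree
  have hodd : Odd q := by
    rcases Nat.even_or_odd q with hev | hod
    · refine absurd ?_ h2
      have hcard : Fintype.card F % 2 = 0 := by
        rw [hF]; exact Nat.even_iff.mp (hev.pow_of_ne_zero two_ne_zero)
      haveI : CharP F 2 := ringChar.of_eq (FiniteField.even_card_iff_char_two.mpr hcard)
      exact CharTwo.two_eq_zero
    · exact hod
  obtain ⟨k, hk⟩ := hodd
  set e := (q - 1) * (k + 1) with he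
  have hee : e * 2 = q ^ 2 - 1 := by
    have h1 : (q - 1) * (q + 1) = q ^ 2 - 1 := by rw [sq, mul_comm, ← mul_self_tsub_one]
    rw [← h1, he, mul_assoc]; congr 1; omega
  have hχ : ∀ x : F, x ≠ 0 → x ^ e = 1 ∨ x ^ e = -1 := fun x hx => by
    refine sq_eq_one_iff.mp ?_
    rw [← pow_mul, hee, ← hF]
    exact FiniteField.pow_card_sub_one_eq_one x hx
  obtain ⟨i, j, hij, hsq⟩ : ∃ i j, i ≠ j ∧ (G i * G j) ^ e = 1 := by
    rcases hχ _ (hz e₀ c) with a₀ | a₀ <;> rcases hχ _ (hz e₁ c) with a₁ | a₁ <;>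
      rcases hχ _ (hz e₂ c) with a₂ | a₂ <;>
      first
        | (refine ⟨e₀, e₁, by simp [e₀, e₁], ?_⟩; simp only [G, mul_pow, a₀, a₁]; (try norm_num); done)
        | (refine ⟨e₀, e₂, by simp [e₀, e₂], ?_⟩; simp only [G, mul_pow, a₀, a₂]; (try norm_num); done)
        | (refine ⟨e₁, e₂, by simp [e₁, e₂], ?_⟩; simp only [G, mul_pow, a₁, a₂]; (try norm_num); done)
  obtain ⟨a, b, hab, hia, hib, hja, hjb⟩ := hrest i j hij
  set s := (G i * G j) ^ (k + 1) with hs
  have hsq' : s ^ q = s := by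
    have h1 : s ^ (q - 1) = 1 := by rw [hs, ← pow_mul, mul_comm (k + 1), ← he, hsq]
    calc s ^ q = s ^ (q - 1) * s := by rw [← pow_succ]; congr 1; omega
      _ = s := by rw [h1, one_mul]
  have hsA : (G i * u j) ^ (q + 1) = s ^ 2 := by
    rw [hul, mul_pow, ← pow_mul, mul_comm q, pow_mul, norm_pow_q hF, ← mul_pow, hs, ← pow_mul]
    congr 1; omega
  have hne' : ∀ {x y A K : F}, x * A + (x * A) ^ q ≠ 0 → x * A + (x * A) ^ q + K = 0 →
      y * A + (y * A) ^ q + K = 0 → x + y ≠ 0 := by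
    intro x y A K hx e1 e2 h0
    obtain rfl : y = -x := by linear_combination h0
    refine hx (mul_left_cancel₀ h2 ?_)
    rw [neg_mul, ← conjQ_apply hF, map_neg, conjQ_apply hF] at e2
    linear_combination e1 - e2
  rcases exists_double_ne hF h2 hq (hne i j) (hne a b) hsq' hsA with
    ⟨ν₁, ν₂, ν', h1, h2', h3, h4, h7, h5, h6⟩ | ⟨ν₁, ν₂, ν', h1, h2', h3, h4, h7, h5, h6⟩
  · exact key i j a b hij hab hia hib hja hjb ν₁ ν₂ ν' h1 h2' h3 h4 (hne' h7 h5 h6) h5 h6
  · exact key a b i j hab hij hia.symm hja.symm hib.symm hjb.symm ν₁ ν₂ ν' h1 h2' h3 h4 (hne' h7 h5 h6) h5 h6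

/-- Mixing is not total in dimension four. -/
theorem not_spreading₄ (hn : n = 4) (hq : 4 ≤ q) {M : Subgroup (GL (Fin n) F)} (hMK : M ≤ G₁) (hdiag : HasDiag q M)
    (hmono : ∀ m ∈ G₁, IsMonom m → m ∈ M) (hspread : Spreading M) {g : GL (Fin n) F} (hg : g ∈ M)
    (hgm : ¬ IsMonom g) : False := by
  obtain ⟨x, hx, hxm, c, d, hcd⟩ := exists_zero₄ hF hn hq hMK hmono hg hgm
  exact zero_absurd hF hn hq hMK hdiag hspread hx hxm hcd

end Cfsg.Agent.H2.SU4
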