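import Cfsg.Agent.H60.SULow.Stab

set_option autoImplicit false
set_option linter.unusedSectionVars false

/-!
A special isometry supported on a non-degenerate subspace moves any anisotropic vector of it onto any other of
the same norm.
-/

namespace Cfsg.Agent.H2.SU4

open scoped Matrix
open Cfsg.Agent.H98 Cfsg.Agent.H98.Herm

variable {ι : Type} [Fintype ι] [DecidableEq ι] {F : Type*} [Field F] [Finite F]
variable {σ : F ≃+* F} {f : (ι → F) → (ι → F) → F} (hf : Cfsg.Geo.IsUnitaryForm σ f)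

include hf

/-- The element `x ↦ x + c f(x,v) v`. -/
theorem exists_qrefl (v : ι → F) (c : F) (hc : c + σ c + c * σ c * f v v = 0) :
    ∃ g : GL ι F, (∀ x, (g : Matrix ι ι F) *ᵥ x = x + (c * f x v) • v) ∧
      (∀ x y, f ((g : Matrix ι ι F) *ᵥ x) ((g : Matrix ι ι F) *ᵥ y) = f x y) ∧
      (g : Matrix ι ι F).det = 1 + c * f v v := by
  have hdet : (transMat (c • fl hf v) v).det = 1 + c * f v v := by
    rw [transMat, Matrix.vecMulVec_eq Unit, Matrix.det_one_add_replicateCol_mul_replicateRow]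
    have key : ∀ φ : (ι → F) →ₗ[F] F, (fun i => φ (Pi.single i 1)) ⬝ᵥ v = φ v := fun φ => by
      conv_rhs => rw [pi_eq_sum_univ' v]
      simp [dotProduct, map_sum, mul_comm]
    have := key (c • fl hf v)
    rw [this, LinearMap.smul_apply, fl_apply, smul_eq_mul]
  have h0 : (transMat (c • fl hf v) v).det ≠ 0 := fun h => by
    rw [hdet] at h
    have hc0 : c = 0 := by linear_combination hc - σ c * h
    rw [hc0, zero_mul, add_zero] at h
    exact one_ne_zero h
  refine ⟨Matrix.GeneralLinearGroup.mkOfDetNeZero _ h0, fun x => ?_, fun x y => ?_, hdet⟩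
  · exact transMat_mulVec (c • fl hf v) v x
  · change f (transMat (c • fl hf v) v *ᵥ x) (transMat (c • fl hf v) v *ᵥ y) = f x y
    simp only [transMat_mulVec, LinearMap.smul_apply, fl_apply, smul_eq_mul, hf.add_left, add_right hf,
      hf.smul_left, smul_right hf, map_mul, sigma_apply hf]
    linear_combination (f x v * f v y) * hc

theorem mem_sl_of_det {g : GL ι F} (h : (g : Matrix ι ι F).det = 1) : g ∈ Cfsg.Geo.specialLinear ι F := by
  rw [Cfsg.Geo.specialLinear, MonoidHom.mem_ker, ← Units.val_inj]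
  exact h

/-- Moving along a difference which is not orthogonal. -/
theorem exists_move_of_ne {U : Submodule F (ι → F)} {b b' y : ι → F} (hb : b ∈ U) (hb' : b' ∈ U)
    (hy : y ∈ U) (hyb : f y b' = 0) (hyy : f y y ≠ 0) (hn : f b' b' = f b b) (hne : f b b' ≠ f b b) :
    ∃ g : GL ι F, (∀ x z, f ((g : Matrix ι ι F) *ᵥ x) ((g : Matrix ι ι F) *ᵥ z) = f x z) ∧
      (g : Matrix ι ι F).det = 1 ∧ (g : Matrix ι ι F) *ᵥ b = b' ∧ (∀ x ∈ U, (g : Matrix ι ι F) *ᵥ x ∈ U) ∧
      ∀ x ∈ perp hf U, (g : Matrix ι ι F) *ᵥ x = x := by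
  set d := b - b' with hd
  have hdU : d ∈ U := U.sub_mem hb hb'
  have hbd : f b d ≠ 0 := by rw [hd, sub_right hf, sub_ne_zero]; exact Ne.symm hne
  have hdd : f d d = f b d + f d b := by
    rw [hd, sub_left hf, sub_left hf, sub_right hf, sub_right hf, hn]; ring
  set c := -(f b d)⁻¹ with hcdef
  have hdb : f d b ≠ 0 := fun h => hbd ((eq_zero_comm hf).mp h)
  have hc : c + σ c + c * σ c * f d d = 0 := by
    rw [hcdef, map_neg, map_inv₀, sigma_apply hf, hdd]
    field_simp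
    ring
  obtain ⟨g₁, h1, h1i, h1d⟩ := exists_qrefl hf d c hc
  set δ := 1 + c * f d d with hδ
  have hδN : δ * σ δ = 1 := by
    rw [hδ, map_add, map_one, map_mul, sigma_apply hf]
    linear_combination f d d * hc
  have hδ0 : δ ≠ 0 := fun h => by rw [h, zero_mul] at hδN; exact zero_ne_one hδN
  set e := (δ⁻¹ - 1) / f y y with hedef
  have he : e + σ e + e * σ e * f y y = 0 := by
    have hσ : σ δ = δ⁻¹ := eq_inv_of_mul_eq_one_right hδN
    rw [hedef, map_div₀, map_sub, map_inv₀, map_one, sigma_apply hf, hσ, inv_inv]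
    field_simp
    ring
  obtain ⟨g₂, h2, h2i, h2d⟩ := exists_qrefl hf y e he
  have hm : ∀ x, ((g₂ * g₁ : GL ι F) : Matrix ι ι F) *ᵥ x =
      (g₂ : Matrix ι ι F) *ᵥ ((g₁ : Matrix ι ι F) *ᵥ x) := fun x => by
    rw [Units.val_mul, Matrix.mulVec_mulVec]
  refine ⟨g₂ * g₁, fun x z => ?_, ?_, ?_, fun x hx => ?_, fun x hx => ?_⟩
  · rw [hm, hm, h2i, h1i]
  · rw [Units.val_mul, Matrix.det_mul, h1d, h2d, hedef, div_mul_cancel₀ _ hyy, add_sub_cancel,
      inv_mul_cancel₀ hδ0]
  · have e1 : (g₁ : Matrix ι ι F) *ᵥ b = b' := by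
      rw [h1, hcdef, neg_mul, inv_mul_cancel₀ hbd, hd, neg_one_smul]; abel
    rw [hm, e1, h2, (eq_zero_comm hf).mp hyb, mul_zero, zero_smul, add_zero]
  · rw [hm, h2]
    have h3 : (g₁ : Matrix ι ι F) *ᵥ x ∈ U := by rw [h1]; exact U.add_mem hx (U.smul_mem _ hdU)
    exact U.add_mem h3 (U.smul_mem _ hy)
  · rw [hm, h1, (mem_perpW hf).mp hx d hdU, mul_zero, zero_smul, add_zero, h2, (mem_perpW hf).mp hx y hy, mul_zero,
      zero_smul, add_zero]

/-- An anisotropic vector orthogonal to a given one inside a non-degenerate plane or larger. -/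
theorem exists_orth_aniso {U : Submodule F (ι → F)} (hU : ∀ x ∈ U, x ∈ perp hf U → x = 0)
    (hdim : 2 ≤ Module.finrank F U) {b : ι → F} (hb : b ∈ U) (hbb : f b b ≠ 0) :
    ∃ y ∈ U, f y b = 0 ∧ f y y ≠ 0 := by
  set K := U ⊓ LinearMap.ker (fl hf b) with hK
  by_contra hc
  push Not at hc
  have hK0 : K = ⊥ := by
    refine (Submodule.eq_bot_iff K).mpr fun x hx => hU x hx.1 ((mem_perpW hf).mpr fun u hu => ?_)
    have hxb : f x b = 0 := hx.2
    set u' := u - (f u b / f b b) • b with hu'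
    have hu'K : u' ∈ K := ⟨U.sub_mem hu (U.smul_mem _ hb), by
      rw [SetLike.mem_coe, LinearMap.mem_ker, fl_apply, hu', sub_left hf, hf.smul_left, div_mul_cancel₀ _ hbb,
        sub_self]⟩
    have hxu : f x u' = 0 :=
      Cfsg.Agent.H60.SULow.eq_zero_of_all_iso hf (U := K) (fun w hw => hc w hw.1 hw.2) hx hu'K
    rw [hu', sub_right hf, smul_right hf, hxb, mul_zero, sub_zero] at hxu
    exact hxu
  have h1 := Submodule.finrank_sup_add_finrank_inf_eq U (LinearMap.ker (fl hf b))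
  have h2 := Submodule.finrank_le (U ⊔ LinearMap.ker (fl hf b))
  have h3 := LinearMap.finrank_range_add_finrank_ker (fl hf b)
  have h4 := Submodule.finrank_le (LinearMap.range (fl hf b))
  rw [Module.finrank_self] at h4
  rw [← hK, hK0, finrank_bot] at h1
  omega

/-- A scalar of norm one other than one. -/
theorem exists_norm_one_ne : ∃ l : F, l * σ l = 1 ∧ l ≠ 1 := by
  obtain ⟨z, hz⟩ : ∃ z, σ z ≠ z := by
    by_contra h; push Not at h
    exact hf.ne_refl (RingEquiv.ext h)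
  have hz0 : z ≠ 0 := fun h => hz (by rw [h, map_zero])
  have hσz : σ z ≠ 0 := by simpa using hz0
  refine ⟨z / σ z, by rw [map_div₀, hf.involutive]; field_simp, fun h => hz ?_⟩
  rw [div_eq_one_iff_eq hσz] at h
  exact h.symm

/-- Two vectors of equal non-zero norm in a non-degenerate subspace are related by a special isometry supported
on it. -/
theorem exists_move {U : Submodule F (ι → F)} (hU : ∀ x ∈ U, x ∈ perp hf U → x = 0)
    (hdim : 2 ≤ Module.finrank F U) {b b' : ι → F} (hb : b ∈ U) (hb' : b' ∈ U) (hbb : f b b ≠ 0)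
    (hn : f b' b' = f b b) :
    ∃ g : GL ι F, (∀ x z, f ((g : Matrix ι ι F) *ᵥ x) ((g : Matrix ι ι F) *ᵥ z) = f x z) ∧
      (g : Matrix ι ι F).det = 1 ∧ (g : Matrix ι ι F) *ᵥ b = b' ∧ (∀ x ∈ U, (g : Matrix ι ι F) *ᵥ x ∈ U) ∧
      ∀ x ∈ perp hf U, (g : Matrix ι ι F) *ᵥ x = x := by
  obtain ⟨y, hy, hyb, hyy⟩ := exists_orth_aniso hf hU hdim hb' (hn ▸ hbb)
  by_cases hne : f b b' ≠ f b b
  · exact exists_move_of_ne hf hb hb' hy hyb hyy hn hne
  rw [not_not] at hne
  obtain ⟨l, hl, hl1⟩ := exists_norm_one_ne hf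
  have hσl : σ l ≠ 1 := fun h => hl1 (by simpa [h] using hl)
  have hn' : f (l • b') (l • b') = f b b := by
    rw [hf.smul_left, smul_right hf, ← mul_assoc, hl, one_mul, hn]
  obtain ⟨g₁, a1, a2, a3, a4, a5⟩ := exists_move_of_ne hf hb (U.smul_mem l hb') hy
    (by rw [smul_right hf, hyb, mul_zero]) hyy hn' (by
      rw [smul_right hf, hne]
      exact fun h => hσl ((mul_eq_right₀ hbb).mp h))
  obtain ⟨g₂, b1, b2, b3, b4, b5⟩ := exists_move_of_ne hf (U.smul_mem l hb') hb' hy hyb hyy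
    (by rw [hn', hn]) (by
      rw [hf.smul_left, hn', hn]
      exact fun h => hl1 ((mul_eq_right₀ hbb).mp h))
  have hm : ∀ x, ((g₂ * g₁ : GL ι F) : Matrix ι ι F) *ᵥ x =
      (g₂ : Matrix ι ι F) *ᵥ ((g₁ : Matrix ι ι F) *ᵥ x) := fun x => by
    rw [Units.val_mul, Matrix.mulVec_mulVec]
  exact ⟨g₂ * g₁, fun x z => by rw [hm, hm, b1, a1], by rw [Units.val_mul, Matrix.det_mul, a2, b2, one_mul],
    by rw [hm, a3, b3], fun x hx => by rw [hm]; exact b4 _ (a4 x hx), fun x hx => by rw [hm, a5 x hx, b5 x hx]⟩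

end Cfsg.Agent.H2.SU4
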