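import Cfsg.Agent.H2.SU4.PairComm

set_option autoImplicit false
set_option linter.unusedSectionVars false

/-!
For `q ≥ 4` the stabiliser in `SU(4, q)` of a decomposition into two totally isotropic planes is maximal
(conjunct (5) of the list for `SU(4, q)`).
-/

namespace Cfsg.Agent.H2.SU4

open scoped Matrix
open Cfsg.Agent.H98 Cfsg.Agent.H3

variable {F : Type*} [Field F] [Fintype F] {q : ℕ} (hF : Fintype.card F = q ^ 2)
variable {D : Fin 2 → Submodule F (Fin 4 → F)}

local notation "Mat" => Matrix (Fin 4) (Fin 4) F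
local notation "G₁" => Cfsg.GU 4 F q ⊓ Cfsg.Geo.specialLinear (Fin 4) F
local notation "h" => Cfsg.hermForm 4 F q

include hF

/-- A fixed scalar other than `0`, `1` and `-1`. -/
theorem exists_fixed_ne_one (h4 : 4 ≤ q) :
    ∃ k : F, Herm.frobQ hF k = k ∧ k ≠ 0 ∧ k ≠ 1 ∧ k ≠ -1 := by
  classical
  obtain ⟨z, hz⟩ := IsCyclic.exists_monoid_generator (α := Fˣ)
  have ho : orderOf z = Nat.card Fˣ := orderOf_eq_card_of_forall_mem_zpowers fun x => by
    obtain ⟨n, rfl⟩ := hz x
    exact Subgroup.npow_mem_zpowers z n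
  rw [Nat.card_units, Nat.card_eq_fintype_card, hF] at ho
  have key : ((z : F) ^ (q + 1)) ^ 2 ≠ 1 := fun he => by
    have h1 : z ^ ((q + 1) * 2) = 1 := Units.ext (by rw [Units.val_pow_eq_pow_val, pow_mul, he, Units.val_one])
    have h2 := Nat.le_of_dvd (by omega) (orderOf_dvd_of_pow_eq_one h1)
    rw [ho] at h2
    have h3 : 4 * q ≤ q ^ 2 := by rw [sq]; exact Nat.mul_le_mul_right q h4
    omega
  refine ⟨(z : F) ^ (q + 1), ?_, pow_ne_zero _ z.ne_zero, fun he => key (by rw [he, one_pow]),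
    fun he => key (by rw [he, neg_one_sq])⟩
  rw [map_pow, pow_succ, pow_succ, Herm.frobQ_apply, ← pow_mul, ← sq, ← hF, FiniteField.pow_card]
  exact mul_comm _ _

/-- A totally isotropic line absorbs the isotropic vectors orthogonal to it. -/
theorem mem_pair_of_orth {p r x : Fin 4 → F} (hli : LinearIndependent F ![p, r]) (hpp : h p p = 0)
    (hrr : h r r = 0) (hxx : h x x = 0) (hpr : h p r = 0) (hxp : h x p = 0) (hxr : h x r = 0) :
    x ∈ Submodule.span F {p, r} := by
  have hf := Herm.isUnitary_std (n := 4) hF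
  by_contra hx
  have hli3 : LinearIndependent F ![x, p, r] := linearIndependent_fin_cons.mpr ⟨hli, by
    rwa [show Set.range ![p, r] = {p, r} by simp [Matrix.range_cons, Matrix.range_empty, Set.pair_comm, Set.union_comm]]⟩
  have h1 := Herm.ti_bound hf (Submodule.span F (Set.range ![x, p, r])) (fun a ha b hb => by
    induction ha using Submodule.span_induction with
    | mem a ha =>
      induction hb using Submodule.span_induction with
      | mem b hb =>
        obtain ⟨i, rfl⟩ := ha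
        obtain ⟨j, rfl⟩ := hb
        fin_cases i <;> fin_cases j <;>
          simp [hpp, hrr, hxx, hpr, hxp, hxr, (Herm.eq_zero_comm hf).mp hpr, (Herm.eq_zero_comm hf).mp hxp,
            (Herm.eq_zero_comm hf).mp hxr]
      | zero => exact Herm.zero_right hf a
      | add b₁ b₂ _ _ i₁ i₂ => rw [Herm.add_right hf, i₁, i₂, add_zero]
      | smul c b₁ _ i₁ => rw [Herm.smul_right hf, i₁, mul_zero]
    | zero => exact Herm.zero_left hf b
    | add a₁ a₂ _ _ i₁ i₂ => rw [hf.add_left, i₁, i₂, add_zero]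
    | smul c a₁ _ i₁ => rw [hf.smul_left, i₁, mul_zero])
  rw [finrank_span_eq_card hli3, Fintype.card_fin, Fintype.card_fin] at h1
  omega

theorem comp_sum (hD : Cfsg.Geo.IsMDecomposition 2 D) (v : Fin 4 → F) : comp hD 0 v + comp hD 1 v = v := by
  conv_rhs => rw [← sum_comp hD v, Fin.sum_univ_two]

theorem comp_li (hD : Cfsg.Geo.IsMDecomposition 2 D) {a b : Fin 4 → F} (ha : a ∈ D 0) (hb : b ∈ D 1) (ha0 : a ≠ 0)
    (hb0 : b ≠ 0) : LinearIndependent F ![a, b] := by
  rw [LinearIndependent.pair_iff]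
  intro s t hst
  have h0 := congrArg (comp hD 0) hst
  have h1 := congrArg (comp hD 1) hst
  rw [map_add, map_smul, map_smul, comp_same hD ha, comp_other hD (by decide) hb, smul_zero, add_zero, map_zero,
    smul_eq_zero] at h0
  rw [map_add, map_smul, map_smul, comp_other hD (by decide) ha, comp_same hD hb, smul_zero, zero_add, map_zero,
    smul_eq_zero] at h1
  exact ⟨h0.resolve_right ha0, h1.resolve_right hb0⟩

/-- Vectors of the other member orthogonal to a given one. -/
theorem exists_orth_member (hD : Cfsg.Geo.IsMDecomposition 2 D) (j : Fin 2) (z : Fin 4 → F) :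
    ∃ x ∈ D j, x ≠ 0 ∧ h x z = 0 := by
  have hf := Herm.isUnitary_std (n := 4) hF
  obtain ⟨x, hx, hx0⟩ := Submodule.exists_mem_ne_zero_of_ne_bot
    (show D j ⊓ LinearMap.ker (Herm.fl hf z) ≠ ⊥ from fun hb => by
      have h1 := Submodule.finrank_sup_add_finrank_inf_eq (D j) (LinearMap.ker (Herm.fl hf z))
      have h2 := Submodule.finrank_le (D j ⊔ LinearMap.ker (Herm.fl hf z))
      have h3 := LinearMap.finrank_range_add_finrank_ker (Herm.fl hf z)
      have h4 := Submodule.finrank_le (LinearMap.range (Herm.fl hf z))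
      rw [Module.finrank_self] at h4
      rw [hb, finrank_bot, hD.finrank_eq] at h1
      rw [Module.finrank_fin_fun] at h2 h3
      omega)
  exact ⟨x, hx.1, hx0, hx.2⟩

/-- Outside the stabiliser some transversal line is moved to a line which is not transversal. -/
theorem exists_moved_line (hD : Cfsg.Geo.IsMDecomposition 2 D) (hts : ∀ i, ∀ u ∈ D i, ∀ v ∈ D i, h u v = 0)
    {g : GL (Fin 4) F} (hg : g ∈ Cfsg.GU 4 F q) (hgD : g ∉ Cfsg.Geo.decompositionStabilizer D) :
    ∃ i j : Fin 2, i ≠ j ∧ ∃ z ∈ D i, ∃ x ∈ D j, z ≠ 0 ∧ x ≠ 0 ∧ h z x = 0 ∧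
      ¬ ∃ a ∈ D 0, ∃ b ∈ D 1, a ≠ 0 ∧ b ≠ 0 ∧ a ∈ Submodule.span F {(g : Mat) *ᵥ z, (g : Mat) *ᵥ x} ∧
        b ∈ Submodule.span F {(g : Mat) *ᵥ z, (g : Mat) *ᵥ x} := by
  classical
  have hf := Herm.isUnitary_std (n := 4) hF
  by_contra hc
  push Not at hc
  have hiso : ∀ a b, h ((g : Mat) *ᵥ a) ((g : Mat) *ᵥ b) = h a b := hg
  have hinj := gl_mulVec_injective g
  set P₀ := comp hD 0 with hP₀
  set P₁ := comp hD 1 with hP₁
  have hPsum : ∀ v, P₀ v + P₁ v = v := comp_sum hF hD
  have key : ∀ i, ∀ z ∈ D i, (g : Mat) *ᵥ z ∈ D 0 ∨ (g : Mat) *ᵥ z ∈ D 1 := by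
    intro i z hz
    by_contra hmix
    rw [not_or] at hmix
    obtain ⟨j, hji⟩ := exists_ne i
    -- the two components of every image lie on the image lines
    have hq : ∀ w ∈ D i, h (P₀ ((g : Mat) *ᵥ w)) (P₁ ((g : Mat) *ᵥ w)) = 0 := by
      intro w hw
      rcases eq_or_ne w 0 with rfl | hw0
      · rw [Matrix.mulVec_zero, map_zero, Herm.zero_left hf]
      obtain ⟨x, hx, hx0, hxw⟩ := exists_orth_member hF hD j w
      obtain ⟨a, ha, b, hb, ha0, hb0, haL, hbL⟩ := hc i j hji.symm w hw x hx hw0 hx0 ((Herm.eq_zero_comm hf).mp hxw)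
      set L := Submodule.span F {(g : Mat) *ᵥ w, (g : Mat) *ᵥ x} with hL
      have hwL : (g : Mat) *ᵥ w ∈ Submodule.span F {a, b} := by
        have hle : Submodule.span F {a, b} ≤ L := Submodule.span_le.mpr (by rintro y (rfl | rfl) <;> assumption)
        have h2 : Module.finrank F L ≤ Module.finrank F (Submodule.span F ({a, b} : Set (Fin 4 → F))) := by
          rw [show ({a, b} : Set (Fin 4 → F)) = Set.range ![a, b] by
            simp [Matrix.range_cons, Matrix.range_empty, Set.pair_comm, Set.union_comm],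
            finrank_span_eq_card (comp_li hF hD ha hb ha0 hb0), Fintype.card_fin, hL,
            show ({(g : Mat) *ᵥ w, (g : Mat) *ᵥ x} : Set (Fin 4 → F)) = Set.range ![(g : Mat) *ᵥ w, (g : Mat) *ᵥ x] by
              simp [Matrix.range_cons, Matrix.range_empty, Set.pair_comm, Set.union_comm]]
          exact (finrank_range_le_card _).trans (Fintype.card_fin 2).le
        rw [Submodule.eq_of_le_of_finrank_le hle h2]
        exact Submodule.subset_span (by simp)
      obtain ⟨s, t, hst⟩ := Submodule.mem_span_pair.mp hwL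
      have hab : h a b = 0 := by
        obtain ⟨s₁, t₁, e₁⟩ := Submodule.mem_span_pair.mp haL
        obtain ⟨s₂, t₂, e₂⟩ := Submodule.mem_span_pair.mp hbL
        rw [← e₁, ← e₂]
        simp only [hf.add_left, hf.smul_left, Herm.add_right hf, Herm.smul_right hf, hiso, hts i w hw w hw,
          hts j x hx x hx, hxw, (Herm.eq_zero_comm hf).mp hxw, mul_zero, add_zero]
      rw [← hst, map_add, map_add, map_smul, map_smul, map_smul, map_smul, hP₀, hP₁, comp_same hD ha,
        comp_same hD hb, comp_other hD (by decide) ha, comp_other hD (by decide) hb, smul_zero, smul_zero, zero_add,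
        add_zero, hf.smul_left, Herm.smul_right hf, hab, mul_zero, mul_zero]
    have hpol : ∀ w ∈ D i, ∀ w' ∈ D i, h (P₀ ((g : Mat) *ᵥ w)) (P₁ ((g : Mat) *ᵥ w')) = 0 := by
      intro w hw w' hw'
      set X := h (P₀ ((g : Mat) *ᵥ w)) (P₁ ((g : Mat) *ᵥ w'))
      set Y := h (P₀ ((g : Mat) *ᵥ w')) (P₁ ((g : Mat) *ᵥ w))
      have h1 : ∀ c : F, Herm.frobQ hF c * X + c * Y = 0 := fun c => by
        have := hq _ ((D i).add_mem hw ((D i).smul_mem c hw'))
        rw [Matrix.mulVec_add, Matrix.mulVec_smul, map_add, map_add, map_smul, map_smul, hf.add_left,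
          Herm.add_right hf, Herm.add_right hf, hf.smul_left, hf.smul_left, Herm.smul_right hf, Herm.smul_right hf,
          hq w hw, hq w' hw'] at this
        linear_combination this
      obtain ⟨c, hc'⟩ : ∃ c, Herm.frobQ hF c ≠ c := by
        by_contra hn; push Not at hn
        exact hf.ne_refl (RingEquiv.ext hn)
      have e1 := h1 1
      rw [map_one, one_mul, one_mul] at e1
      have e2 : (Herm.frobQ hF c - c) * X = 0 := by linear_combination h1 c - c * e1
      exact (mul_eq_zero.mp e2).resolve_left (sub_ne_zero.mpr hc')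
    set y := (g : Mat) *ᵥ z with hy
    have hyy : h y y = 0 := by rw [hy, hiso]; exact hts i z hz z hz
    have ha0 : P₀ y ≠ 0 := fun h0 => hmix.2 (by rw [← hPsum y, h0, zero_add]; exact comp_mem hD 1 y)
    have hb0 : P₁ y ≠ 0 := fun h0 => hmix.1 (by rw [← hPsum y, h0, add_zero]; exact comp_mem hD 0 y)
    set a := P₀ y with hadef
    set b := P₁ y with hbdef
    have haD : a ∈ D 0 := comp_mem hD 0 y
    have hbD : b ∈ D 1 := comp_mem hD 1 y
    have hab : h a b = 0 := hq z hz
    have hli := comp_li hF hD haD hbD ha0 hb0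
    have hmap : (D i).map (Matrix.mulVecLin (g : Mat)) ≤ Submodule.span F {a, b} := by
      rintro _ ⟨w, hw, rfl⟩
      rw [Matrix.mulVecLin_apply, ← hPsum ((g : Mat) *ᵥ w)]
      refine add_mem ?_ ?_
      · exact mem_pair_of_orth hF hli (hts 0 a haD a haD) (hts 1 b hbD b hbD)
          (hts 0 _ (comp_mem hD 0 _) _ (comp_mem hD 0 _)) hab (hts 0 _ (comp_mem hD 0 _) a haD) (hpol w hw z hz)
      · exact mem_pair_of_orth hF hli (hts 0 a haD a haD) (hts 1 b hbD b hbD)
          (hts 1 _ (comp_mem hD 1 _) _ (comp_mem hD 1 _)) hab ((Herm.eq_zero_comm hf).mp (hpol z hz w hw))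
          (hts 1 _ (comp_mem hD 1 _) b hbD)
    have heq : (D i).map (Matrix.mulVecLin (g : Mat)) = Submodule.span F {a, b} := by
      refine Submodule.eq_of_le_of_finrank_le hmap ?_
      rw [← (Submodule.equivMapOfInjective (Matrix.mulVecLin (g : Mat)) hinj (D i)).finrank_eq, hD.finrank_eq,
        show ({a, b} : Set (Fin 4 → F)) = Set.range ![a, b] by
          simp [Matrix.range_cons, Matrix.range_empty, Set.pair_comm, Set.union_comm]]
      exact (finrank_range_le_card _).trans (Fintype.card_fin 2).le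
    obtain ⟨x, hx, hx0, hxz⟩ := exists_orth_member hF hD j z
    obtain ⟨a', ha', b', hb', ha'0, hb'0, ha'L, hb'L⟩ := hc i j hji.symm z hz x hx (fun h0 => ha0 (by
      rw [hadef, hy, h0, Matrix.mulVec_zero, map_zero])) hx0 ((Herm.eq_zero_comm hf).mp hxz)
    -- both components lie on the transversal line, so `g x` lies in the image of the member
    set L := Submodule.span F {(g : Mat) *ᵥ z, (g : Mat) *ᵥ x}
    have hab' : Submodule.span F {a', b'} = L := by
      refine Submodule.eq_of_le_of_finrank_le (Submodule.span_le.mpr (by rintro y' (rfl | rfl) <;> assumption)) ?_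
      rw [show ({a', b'} : Set (Fin 4 → F)) = Set.range ![a', b'] by
            simp [Matrix.range_cons, Matrix.range_empty, Set.pair_comm, Set.union_comm],
          finrank_span_eq_card (comp_li hF hD ha' hb' ha'0 hb'0), Fintype.card_fin,
          show L = Submodule.span F (Set.range ![(g : Mat) *ᵥ z, (g : Mat) *ᵥ x]) by
            simp [L, Matrix.range_cons, Matrix.range_empty, Set.pair_comm, Set.union_comm]]
      exact (finrank_range_le_card _).trans (Fintype.card_fin 2).le
    obtain ⟨s, t, hst⟩ := Submodule.mem_span_pair.mp (hab'.ge (Submodule.subset_span (Set.mem_insert _ _)))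
    rw [← hy] at hst
    have e0 : s • a' = a := by
      have := congrArg P₀ hst
      rwa [map_add, map_smul, map_smul, hP₀, comp_same hD ha', comp_other hD (by decide) hb', smul_zero, add_zero,
        ← hP₀, ← hadef] at this
    have e1 : t • b' = b := by
      have := congrArg P₁ hst
      rwa [map_add, map_smul, map_smul, hP₁, comp_other hD (by decide) ha', comp_same hD hb', smul_zero, zero_add,
        ← hP₁, ← hbdef] at this
    have hs : s ≠ 0 := fun h0 => ha0 (by rw [← e0, h0, zero_smul])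
    have ht : t ≠ 0 := fun h0 => hb0 (by rw [← e1, h0, zero_smul])
    have hle : Submodule.span F {a', b'} ≤ Submodule.span F {a, b} := by
      refine Submodule.span_le.mpr ?_
      rintro w (rfl | rfl)
      · rw [show w = s⁻¹ • a by rw [← e0, smul_smul, inv_mul_cancel₀ hs, one_smul]]
        exact Submodule.smul_mem _ _ (Submodule.subset_span (by simp))
      · rw [show w = t⁻¹ • b by rw [← e1, smul_smul, inv_mul_cancel₀ ht, one_smul]]
        exact Submodule.smul_mem _ _ (Submodule.subset_span (by simp))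
    have hgx : (g : Mat) *ᵥ x ∈ (D i).map (Matrix.mulVecLin (g : Mat)) :=
      heq.ge (hle (hab'.ge (Submodule.subset_span (by simp))))
    obtain ⟨w, hw, hwx⟩ := hgx
    rw [Matrix.mulVecLin_apply] at hwx
    rw [← hinj hwx] at hx hx0
    have := comp_same hD hw
    rw [comp_other hD hji hx] at this
    exact hx0 this.symm
  have hone : ∀ i, ∃ l, ∀ z ∈ D i, (g : Mat) *ᵥ z ∈ D l := by
    intro i
    by_contra hn
    push Not at hn
    obtain ⟨z, hz, hz0⟩ := hn 0
    obtain ⟨w, hw, hw1⟩ := hn 1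
    have hz1 := (key i z hz).resolve_left hz0
    have hw0 := (key i w hw).resolve_right hw1
    rcases key i (z + w) ((D i).add_mem hz hw) with h0 | h0 <;> rw [Matrix.mulVec_add] at h0
    · exact hz0 (by simpa using (D 0).sub_mem h0 hw0)
    · exact hw1 (by simpa using (D 1).sub_mem h0 hz1)
  choose π hπ using hone
  have hmap : ∀ i, (D i).map (Matrix.toLin' (g : Mat)) = D (π i) := fun i => by
    refine Submodule.eq_of_le_of_finrank_le ?_ ?_
    · rintro _ ⟨w, hw, rfl⟩
      rw [Matrix.toLin'_apply]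
      exact hπ i w hw
    · rw [← (Submodule.equivMapOfInjective (Matrix.toLin' (g : Mat))
        (fun a b hab => hinj (by simpa [Matrix.toLin'_apply] using hab)) (D i)).finrank_eq, hD.finrank_eq,
        hD.finrank_eq]
  have hπinj : Function.Injective π := fun i j hij => by
    by_contra hne
    obtain ⟨w, hw, hw0, -⟩ := exists_orth_member hF hD i 0
    have h1 : Matrix.toLin' (g : Mat) w ∈ (D j).map (Matrix.toLin' (g : Mat)) := by
      rw [hmap j, ← hij, ← hmap i]; exact Submodule.mem_map_of_mem hw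
    obtain ⟨w', hw', he⟩ := h1
    rw [Matrix.toLin'_apply, Matrix.toLin'_apply] at he
    rw [hinj he] at hw'
    have := comp_same hD hw
    rw [comp_other hD (Ne.symm hne) hw'] at this
    exact hw0 this.symm
  exact hgD ⟨Equiv.ofBijective π (Finite.injective_iff_bijective.mp hπinj), hmap⟩

/-- A point of a totally isotropic line lying on a transversal line. -/
theorem exists_point (hD : Cfsg.Geo.IsMDecomposition 2 D) (hts : ∀ i, ∀ u ∈ D i, ∀ v ∈ D i, h u v = 0)
    {p r : Fin 4 → F} (hpp : h p p = 0) (hrr : h r r = 0) (hpr : h p r = 0) :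
    h (comp hD 0 p) (comp hD 1 p) = 0 ∨ ∃ l : F, h (comp hD 0 (r + l • p)) (comp hD 1 (r + l • p)) = 0 := by
  have hf := Herm.isUnitary_std (n := 4) hF
  set P₀ := comp hD 0 with hP₀
  set P₁ := comp hD 1 with hP₁
  refine or_iff_not_imp_left.mpr fun hP0 => ?_
  set X := h (P₀ p) (P₁ r) with hX
  set Y := h (P₀ r) (P₁ p) with hY
  set P := h (P₀ p) (P₁ p) with hP
  set R := h (P₀ r) (P₁ r) with hR
  have hexp : ∀ v w, h v w = h (P₀ v) (P₁ w) + h (P₁ v) (P₀ w) := fun v w => by
    conv_lhs => rw [← comp_sum hF hD v, ← comp_sum hF hD w, ← hP₀, ← hP₁]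
    rw [hf.add_left, Herm.add_right hf, Herm.add_right hf, hts 0 _ (comp_mem hD 0 v) _ (comp_mem hD 0 w),
      hts 1 _ (comp_mem hD 1 v) _ (comp_mem hD 1 w)]
    ring
  have hσX : Herm.frobQ hF X = -Y := by
    have := hexp r p
    rw [(Herm.eq_zero_comm hf).mp hpr] at this
    rw [hX, Herm.sigma_apply hf]
    linear_combination -this
  have hσP : Herm.frobQ hF P = -P := by
    have := hexp p p
    rw [hpp] at this
    rw [hP, Herm.sigma_apply hf]
    linear_combination -this
  have hσR : Herm.frobQ hF R = -R := by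
    have := hexp r r
    rw [hrr] at this
    rw [hR, Herm.sigma_apply hf]
    linear_combination -this
  have hσY : Herm.frobQ hF Y = -X := by
    rw [show Y = -Herm.frobQ hF X by rw [hσX, neg_neg], map_neg, hf.involutive]
  set C := R - X * Y / P with hC
  obtain ⟨m, hm⟩ := Herm.exists_norm hf (a := -C / P) (by
    rw [hC, map_div₀, map_neg, map_sub, map_div₀, map_mul, hσX, hσY, hσP, hσR]
    field_simp
    ring)
  set c := -Y / P with hc
  have hσc : Herm.frobQ hF c = -X / P := by
    rw [hc, map_div₀, map_neg, hσY, hσP]; field_simp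
  refine ⟨c + m, ?_⟩
  rw [map_add, map_add, map_smul, map_smul, hf.add_left, Herm.add_right hf, Herm.add_right hf, hf.smul_left,
    hf.smul_left, Herm.smul_right hf, Herm.smul_right hf, ← hX, ← hY, ← hP, ← hR, map_add, hσc, hc]
  have hm' : m * Herm.frobQ hF m * P = -C := by rw [hm, div_mul_cancel₀ _ hP0]
  rw [hC] at hm'
  field_simp at hm' ⊢
  linear_combination hm'

/-- The stabiliser of two totally isotropic planes is maximal for `q ≥ 4`. -/
theorem su4_pair_maximal (h4 : 4 ≤ q) (hD : Cfsg.Geo.IsMDecomposition 2 D)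
    (hts : ∀ i, ∀ u ∈ D i, ∀ v ∈ D i, h u v = 0) :
    Cfsg.Geo.IsMaximalIn G₁ (Cfsg.Geo.decompositionStabilizer D ⊓ G₁) := by
  classical
  have hf := Herm.isUnitary_std (n := 4) hF
  obtain ⟨ζ, hζ0, hζ⟩ := Herm.exists_skew hf
  obtain ⟨k, hk, hk0, hk1, hk2⟩ := exists_fixed_ne_one hF h4
  have hkinv : k⁻¹ - k ≠ 0 := fun h0 => by
    have : (k - 1) * (k + 1) = 0 := by
      have e : k * (k⁻¹ - k) = 0 := by rw [h0, mul_zero]
      rw [mul_sub, mul_inv_cancel₀ hk0] at e
      linear_combination -e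
    rcases mul_eq_zero.mp this with h1 | h1
    · exact hk1 (sub_eq_zero.mp h1)
    · exact hk2 (eq_neg_of_add_eq_zero_left h1)
  have hsum : ∀ {i j : Fin 2}, i ≠ j → ∀ v, comp hD i v + comp hD j v = v := by
    intro i j hij v
    conv_rhs => rw [← sum_comp hD v, Fin.sum_univ_two]
    fin_cases i <;> fin_cases j <;> first | exact absurd rfl hij | exact add_comm _ _ | rfl
  have hfind : ∀ {i j : Fin 2}, i ≠ j → ∀ a ∈ D i, ∀ S : Submodule F (Fin 4 → F), a ∉ S →
      ∃ z ∈ D j, h a z = 1 ∧ ∀ w ∈ D i, w ∈ S → h w z = 0 := by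
    intro i j hij a ha S hS
    obtain ⟨φ, h1, h2⟩ := exists_functional hS
    obtain ⟨v, hv⟩ := Herm.fl_surjective hf φ
    have hval : ∀ w ∈ D i, h w (comp hD j v) = φ w := by
      intro w hw
      rw [← hv, Herm.fl_apply]
      conv_rhs => rw [← hsum hij v, Herm.add_right hf, hts i w hw _ (comp_mem hD i v), zero_add]
    exact ⟨comp hD j v, comp_mem hD j v, by rw [hval a ha, h1],
      fun w hw hwS => by rw [hval w hw]; exact LinearMap.mem_ker.mp (h2 hwS)⟩
  refine isMaximalIn_of inf_le_right ?_ ?_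
  · obtain ⟨u, hu, hu0, -⟩ := exists_orth_member hF hD 0 0
    obtain ⟨w, hw, hwu, -⟩ := hfind (i := 0) (j := 1) (by decide) u hu ⊥ (by simpa using hu0)
    have hwu' : h w u = 1 := by rw [← Herm.sigma_apply hf u w, hwu, map_one]
    have huu := hts 0 u hu u hu
    refine ⟨Herm.uT hf huu ζ, Herm.uT_mem_su hF huu hζ, fun hh => ?_⟩
    refine not_stab_of_spread hD hw (a := 0) (b := 1) (by decide) ?_ ?_ hh.1 <;>
      rw [Herm.uT_mulVec, map_add, map_smul, hwu', mul_one]
    · rw [comp_other hD (by decide) hw, comp_same hD hu, zero_add]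
      exact smul_ne_zero hζ0 hu0
    · rw [comp_same hD hw, comp_other hD (by decide) hu, smul_zero, add_zero]
      rintro rfl
      rw [Herm.zero_right hf] at hwu
      exact zero_ne_one hwu
  intro M hHM hMK g hg hgH
  have hiso : ∀ m ∈ M, ∀ a b, h ((m : Mat) *ᵥ a) ((m : Mat) *ᵥ b) = h a b := fun m hm => (hMK hm).1
  -- a transvection centre on a transversal line
  obtain ⟨i₀, j₀, hij₀, z₀, hz₀, x₀, hx₀, hz₀0, hx₀0, hzx, hnot⟩ :=
    exists_moved_line hF hD hts (hMK hg).1 (fun hh => hgH ⟨hh, hMK hg⟩)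
  set p := (g : Mat) *ᵥ z₀ with hpdef
  set r := (g : Mat) *ᵥ x₀ with hrdef
  have hpp : h p p = 0 := by rw [hpdef, hiso g hg]; exact hts i₀ z₀ hz₀ z₀ hz₀
  have hrr : h r r = 0 := by rw [hrdef, hiso g hg]; exact hts j₀ x₀ hx₀ x₀ hx₀
  have hpr : h p r = 0 := by rw [hpdef, hrdef, hiso g hg]; exact hzx
  have hli : LinearIndependent F ![p, r] := by
    rw [LinearIndependent.pair_iff]
    intro s t hst
    rw [hpdef, hrdef, ← Matrix.mulVec_smul, ← Matrix.mulVec_smul, ← Matrix.mulVec_add] at hst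
    have e := gl_mulVec_injective g (hst.trans (Matrix.mulVec_zero _).symm)
    have c1 := congrArg (comp hD i₀) e
    have c2 := congrArg (comp hD j₀) e
    rw [map_add, map_smul, map_smul, comp_same hD hz₀, comp_other hD hij₀.symm hx₀, smul_zero, add_zero,
      map_zero, smul_eq_zero] at c1
    rw [map_add, map_smul, map_smul, comp_other hD hij₀ hz₀, comp_same hD hx₀, smul_zero, zero_add,
      map_zero, smul_eq_zero] at c2
    exact ⟨c1.resolve_right hz₀0, c2.resolve_right hx₀0⟩
  have hgX : ∀ d, uX hf hpp hrr hpr d ∈ M := fun d => by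
    rw [← conj_uX hf (hiso g hg) (hts i₀ z₀ hz₀ z₀ hz₀) (hts j₀ x₀ hx₀ x₀ hx₀) hzx d hpp hrr hpr]
    exact M.mul_mem (M.mul_mem hg (hHM ⟨uX_stab hf hts hij₀ hz₀ hx₀ _ _ _ d, uX_mem_su hF _ _ _ d⟩))
      (M.inv_mem hg)
  obtain ⟨u, α, β, γ, ε, v, hv, huv', hp', hr', hKt, hab⟩ : ∃ (u : Fin 4 → F) (α β γ ε : F) (v : Fin 4 → F),
      v ∈ Submodule.span F {p, r} ∧ LinearIndependent F ![u, v] ∧ p = α • u + β • v ∧ r = γ • u + ε • v ∧
      ((α = 1 ∧ β = 0 ∧ γ = 0 ∧ ε = 1) ∨ (α = 0 ∧ β = 1 ∧ γ = 1)) ∧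
      h (comp hD 0 u) (comp hD 1 u) = 0 := by
    rcases exists_point hF hD hts hpp hrr hpr with h0 | ⟨l, hl⟩
    · exact ⟨p, 1, 0, 0, 1, r, Submodule.subset_span (by simp), hli, by simp, by simp, Or.inl ⟨rfl, rfl, rfl, rfl⟩, h0⟩
    · refine ⟨r + l • p, 0, 1, 1, -l, p, Submodule.subset_span (by simp), ?_, by simp, by module,
        Or.inr ⟨rfl, rfl, rfl⟩, hl⟩
      rw [LinearIndependent.pair_iff]
      intro s t hst
      have e := LinearIndependent.pair_iff.mp hli (s * l + t) s (by rw [← hst]; module)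
      exact ⟨e.2, by simpa [e.2] using e.1⟩
  have huL : u ∈ Submodule.span F {p, r} := by
    rcases hKt with ⟨rfl, rfl, rfl, rfl⟩ | ⟨rfl, rfl, rfl⟩
    · rw [hp']; simp only [one_smul, zero_smul, add_zero]; exact Submodule.subset_span (by simp)
    · have : u = r - ε • v := by rw [hr', one_smul]; abel
      rw [this]; exact Submodule.sub_mem _ (Submodule.subset_span (by simp)) (Submodule.smul_mem _ _ hv)
  have hLts : ∀ s ∈ Submodule.span F {p, r}, ∀ t ∈ Submodule.span F {p, r}, h s t = 0 := by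
    intro s hs t ht
    obtain ⟨s₁, s₂, rfl⟩ := Submodule.mem_span_pair.mp hs
    obtain ⟨t₁, t₂, rfl⟩ := Submodule.mem_span_pair.mp ht
    simp only [hf.add_left, hf.smul_left, Herm.add_right hf, Herm.smul_right hf, hpp, hrr, hpr,
      (Herm.eq_zero_comm hf).mp hpr, mul_zero, add_zero]
  have huu := hLts u huL u huL
  have hvv := hLts v hv v hv
  have huv := hLts u huL v hv
  have hu0 : u ≠ 0 := by simpa using huv'.ne_zero 0
  obtain ⟨a, ha⟩ : ∃ a, a = comp hD 0 u := ⟨_, rfl⟩
  obtain ⟨b, hb⟩ : ∃ b, b = comp hD 1 u := ⟨_, rfl⟩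
  rw [← ha, ← hb] at hab
  have hueq : u = a + b := by rw [ha, hb, comp_sum hF hD]
  have haD : a ∈ D 0 := ha ▸ comp_mem hD 0 u
  have hbD : b ∈ D 1 := hb ▸ comp_mem hD 1 u
  -- the transversal line through `u`
  obtain ⟨x, hxx, hux, hxu0, hline, hS⟩ : ∃ x : Fin 4 → F, h x x = 0 ∧ h u x = 0 ∧ x ∉ Submodule.span F {u} ∧
      (∃ a' ∈ D 0, ∃ b' ∈ D 1, a' ≠ 0 ∧ b' ≠ 0 ∧ a' ∈ Submodule.span F {u, x} ∧ b' ∈ Submodule.span F {u, x}) ∧
      ∀ c, Herm.frobQ hF c = c → ∃ S ∈ M, ∀ y, (S : Mat) *ᵥ y = y + (c * h y u) • x - (c * h y x) • u := by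
    rcases eq_or_ne a 0 with rfl | ha0
    · rw [zero_add] at hueq
      subst hueq
      obtain ⟨x, hx, hx0, hxu⟩ := exists_orth_member hF hD 0 u
      have hxx := hts 0 x hx x hx
      refine ⟨x, hxx, (Herm.eq_zero_comm hf).mp hxu, fun hm => ?_,
        ⟨x, hx, u, hbD, hx0, hu0, Submodule.subset_span (by simp), Submodule.subset_span (by simp)⟩, fun c hc => ?_⟩
      · obtain ⟨c, hc⟩ := Submodule.mem_span_singleton.mp hm
        have := comp_same hD hx
        rw [← hc, map_smul, comp_other hD (by decide) hbD, smul_zero, hc] at this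
        exact hx0 this.symm
      · exact ⟨uX hf hxx huu hxu c, hHM ⟨uX_stab hf hts (by decide) hx hbD hxx huu hxu c, uX_mem_su hF _ _ _ c⟩,
          fun y => by rw [uX_mulVec, hc]⟩
    rcases eq_or_ne b 0 with rfl | hb0
    · rw [add_zero] at hueq
      subst hueq
      obtain ⟨x, hx, hx0, hxu⟩ := exists_orth_member hF hD 1 u
      have hxx := hts 1 x hx x hx
      refine ⟨x, hxx, (Herm.eq_zero_comm hf).mp hxu, fun hm => ?_,
        ⟨u, haD, x, hx, hu0, hx0, Submodule.subset_span (by simp), Submodule.subset_span (by simp)⟩, fun c hc => ?_⟩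
      · obtain ⟨c, hc⟩ := Submodule.mem_span_singleton.mp hm
        have := comp_same hD hx
        rw [← hc, map_smul, comp_other hD (by decide) haD, smul_zero, hc] at this
        exact hx0 this.symm
      · exact ⟨uX hf hxx huu hxu c, hHM ⟨uX_stab hf hts (by decide) hx haD hxx huu hxu c, uX_mem_su hF _ _ _ c⟩,
          fun y => by rw [uX_mulVec, hc]⟩
    have haa := hts 0 a haD a haD
    have hau : h a u = 0 := by rw [hueq, Herm.add_right hf, haa, hab, add_zero]
    refine ⟨a, haa, (Herm.eq_zero_comm hf).mp hau, fun hm => ?_,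
      ⟨a, haD, b, hbD, ha0, hb0, Submodule.subset_span (by simp), ?_⟩, fun c hc => ?_⟩
    · obtain ⟨c, hc⟩ := Submodule.mem_span_singleton.mp hm
      have h1 := congrArg (comp hD 1) hc
      rw [map_smul, ← hb, comp_other hD (by decide) haD, smul_eq_zero] at h1
      rw [h1.resolve_right hb0, zero_smul] at hc
      exact ha0 hc.symm
    · rw [show b = u - a by rw [hueq]; abel]
      exact Submodule.sub_mem _ (Submodule.subset_span (by simp)) (Submodule.subset_span (by simp))
    · refine ⟨uX hf haa huu hau c, hHM ⟨stab_of_members fun l w hw => ?_, uX_mem_su hF _ _ _ c⟩,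
        fun y => by rw [uX_mulVec, hc]⟩
      rw [uX_mulVec, hc]
      rcases (show l = 0 ∨ l = 1 by omega) with rfl | rfl
      · rw [hts 0 w hw a haD, mul_zero, zero_smul, sub_zero]
        exact (D 0).add_mem hw ((D 0).smul_mem _ haD)
      · have e : w + (c * h w u) • a - (c * h w a) • u = w - (c * h w a) • b := by
          rw [hueq, Herm.add_right hf, hts 1 w hw b hbD, add_zero]; module
        rw [e]
        exact (D 1).sub_mem hw ((D 1).smul_mem _ hbD)
  have hG : h x v ≠ 0 := fun h0 => by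
    have hmem : x ∈ Submodule.span F {p, r} := by
      have hspan := mem_pair_of_orth hF huv' huu hvv hxx huv ((Herm.eq_zero_comm hf).mp hux) h0
      exact Submodule.span_le.mpr (by rintro y (rfl | rfl) <;> assumption) hspan
    obtain ⟨a', ha', b', hb', ha'0, hb'0, ha'L, hb'L⟩ := hline
    have hle : Submodule.span F {u, x} ≤ Submodule.span F {p, r} :=
      Submodule.span_le.mpr (by rintro y (rfl | rfl) <;> assumption)
    exact hnot ⟨a', ha', b', hb', ha'0, hb'0, hle ha'L, hle hb'L⟩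
  obtain ⟨z, hz⟩ : ∃ z, Herm.frobQ hF z ≠ z := by
    by_contra hn; push Not at hn
    exact hf.ne_refl (RingEquiv.ext hn)
  set G := h x v with hGdef
  have hTgen : ∀ d, ∀ s, Herm.frobQ hF s = s → ∃ T ∈ M, ∀ y, (T : Mat) *ᵥ y = y +
      (s * ((d * α * Herm.frobQ hF γ - Herm.frobQ hF d * γ * Herm.frobQ hF α) * h y u +
        (d * α * Herm.frobQ hF ε - Herm.frobQ hF d * γ * Herm.frobQ hF β) * h y v)) • u +
      (s * ((d * β * Herm.frobQ hF ε - Herm.frobQ hF d * ε * Herm.frobQ hF β) * h y v -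
        Herm.frobQ hF (d * α * Herm.frobQ hF ε - Herm.frobQ hF d * γ * Herm.frobQ hF β) * h y u)) • v := by
    intro d s hs
    refine ⟨uX hf hpp hrr hpr (s * d), hgX _, fun y => ?_⟩
    rw [uX_mulVec]
    simp only [hp', hr', Herm.add_right hf, Herm.smul_right hf, map_mul, map_sub, hf.involutive, hs]
    module
  have hC : u ∈ Herm.centres hf M := by
    rcases hKt with ⟨hα, hβ, hγ, hε⟩ | ⟨hα, hβ, hγ⟩
    · refine transvection_of_lines hf huu hxx hvv hux huv hG hk hk0 hk1 hS (hTgen (z / G)) ?_ (Or.inr ?_)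
      · rw [hβ]; simp
      · rw [hα, hγ, hε]; simp only [map_one, mul_one, mul_zero, zero_mul, sub_zero]
        rw [← hGdef, mul_div_cancel₀ _ hG]; exact hz
    by_cases hε : ε = 0
    · refine transvection_of_lines hf huu hxx hvv hux huv hG hk hk0 hk1 hS
        (hTgen (Herm.frobQ hF (z / G))) ?_ (Or.inr ?_)
      · rw [hε]; simp
      · rw [hα, hβ, hγ]; simp only [map_one, mul_one, mul_zero, zero_mul, zero_sub, hf.involutive]
        rw [← hGdef, mul_neg, mul_div_cancel₀ _ hG, map_neg]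
        exact fun h0 => hz (neg_inj.mp h0)
    · refine transvection_of_lines hf huu hxx hvv hux huv hG hk hk0 hk1 hS
        (hTgen (z / Herm.frobQ hF ε)) ?_ (Or.inl ?_)
      · rw [map_sub, map_mul, map_mul, map_mul, map_mul, hf.involutive, hf.involutive, hf.involutive]; ring
      · rw [hβ, mul_one, map_one, mul_one, div_mul_cancel₀ _ (by simpa using hε), map_div₀, hf.involutive,
          div_mul_cancel₀ _ hε, sub_ne_zero]
        exact Ne.symm hz
  -- the torus
  have htorus : ∀ e ∈ D 0, ∀ w ∈ D 1, h e w = 1 → ∃ t ∈ M,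
      (∀ y, (t : Mat) *ᵥ y = y + ((k - 1) * h y w) • e + ((k⁻¹ - 1) * h y e) • w) := by
    intro e he w hw hew
    obtain ⟨t, t1, t2, t3⟩ := exists_torus hf (hts 0 e he e he) (hts 1 w hw w hw) hew hk hk0
    refine ⟨t, hHM ⟨stab_of_members fun l y hy => ?_, t2, t3⟩, t1⟩
    rw [t1]
    rcases (show l = 0 ∨ l = 1 by omega) with rfl | rfl
    · rw [hts 0 y hy e he, mul_zero, zero_smul, add_zero]; exact (D 0).add_mem hy ((D 0).smul_mem _ he)
    · rw [hts 1 y hy w hw, mul_zero, zero_smul, add_zero]; exact (D 1).add_mem hy ((D 1).smul_mem _ hw)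
  -- a centre with non-orthogonal components, or in a member
  have hstep : (∃ l, ∃ w ∈ D l, w ≠ 0 ∧ w ∈ Herm.centres hf M) ∨
      ∃ a' ∈ D 0, ∃ b' ∈ D 1, a' + b' ∈ Herm.centres hf M ∧ h a' b' ≠ 0 := by
    rcases eq_or_ne a 0 with ha0 | ha0
    · rw [ha0, zero_add] at hueq; exact Or.inl ⟨1, u, hueq ▸ hbD, hu0, hC⟩
    rcases eq_or_ne b 0 with hb0 | hb0
    · rw [hb0, add_zero] at hueq; exact Or.inl ⟨0, u, hueq ▸ haD, hu0, hC⟩
    obtain ⟨e, he, heb⟩ : ∃ e ∈ D 0, h e b ≠ 0 := by
      by_contra hcc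
      push Not at hcc
      refine hb0 ?_
      have hz' : Herm.fl hf b = 0 := LinearMap.ext fun y => by
        rw [LinearMap.zero_apply, Herm.fl_apply, ← comp_sum hF hD y, hf.add_left,
          hcc _ (comp_mem hD 0 y), hts 1 _ (comp_mem hD 1 y) b hbD, add_zero]
      exact Herm.fl_injective hf (hz'.trans (LinearMap.ext fun z => (Herm.zero_right hf z).symm))
    obtain ⟨w, hw, hew, hwz⟩ := hfind (i := 0) (j := 1) (by decide) e he (Submodule.span F {a - e}) (fun hm => by
      obtain ⟨c, hc⟩ := Submodule.mem_span_singleton.mp hm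
      have h1 : h ((1 + c) • e) b = 0 := by
        rw [show (1 + c) • e = c • a by linear_combination (norm := module) -hc, hf.smul_left, hab, mul_zero]
      rw [hf.smul_left, mul_eq_zero] at h1
      have hc1 : c = -1 := eq_neg_of_add_eq_zero_left (by linear_combination h1.resolve_right heb)
      rw [hc1, show (-1 : F) • (a - e) = e - a by module, sub_eq_self] at hc
      exact ha0 hc)
    have haw : h a w = 1 := by
      have := hwz (a - e) ((D 0).sub_mem haD he) (Submodule.mem_span_singleton_self _)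
      rw [Herm.sub_left hf, hew, sub_eq_zero] at this
      exact this
    obtain ⟨t, htM, ht⟩ := htorus e he w hw hew
    set a₁ := a + (k - 1) • e with ha₁
    set b₁ := b + ((k⁻¹ - 1) * h b e) • w with hb₁
    have hta : (t : Mat) *ᵥ a = a₁ := by
      rw [ht, haw, hts 0 a haD e he, mul_one, mul_zero, zero_smul, add_zero]
    have htb : (t : Mat) *ᵥ b = b₁ := by
      rw [ht, hts 1 b hbD w hw, mul_zero, zero_smul, add_zero]
    have ha₁D : a₁ ∈ D 0 := (D 0).add_mem haD ((D 0).smul_mem _ he)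
    have hb₁D : b₁ ∈ D 1 := (D 1).add_mem hbD ((D 1).smul_mem _ hw)
    have hab₁ : h a₁ b₁ = 0 := by rw [← hta, ← htb, hiso t htM]; exact hab
    have hC₁ : a₁ + b₁ ∈ Herm.centres hf M := by
      rw [← hta, ← htb, ← Matrix.mulVec_add, ← hueq]; exact Herm.centres_conj hf hiso htM hC
    set Z := h e b with hZ
    have hbe : h b e = Herm.frobQ hF Z := by rw [hZ, Herm.sigma_apply hf]
    have hσk : Herm.frobQ hF (k⁻¹ - 1) = k⁻¹ - 1 := by rw [map_sub, map_inv₀, hk, map_one]
    have hX : h a b₁ = (k⁻¹ - 1) * Z := by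
      rw [hb₁, Herm.add_right hf, Herm.smul_right hf, hab, haw, map_mul, hσk, hbe, hf.involutive]; ring
    have hY : h b a₁ = (k - 1) * Herm.frobQ hF Z := by
      rw [ha₁, Herm.add_right hf, Herm.smul_right hf, (Herm.eq_zero_comm hf).mp hab, hbe, map_sub, hk, map_one]; ring
    clear_value a₁ b₁
    set S := (k⁻¹ - 1) * Z + (k - 1) * Herm.frobQ hF Z with hSdef
    have hne : (k⁻¹ - 1) ^ 2 - (k - 1) ^ 2 ≠ 0 := by
      have hk11 : k - 1 ≠ 0 := sub_ne_zero.mpr hk1
      have hk21 : k + 1 ≠ 0 := fun h0 => hk2 (eq_neg_of_add_eq_zero_left h0)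
      rw [show (k⁻¹ - 1) ^ 2 - (k - 1) ^ 2 = -((k - 1) ^ 3 * (k + 1)) / k ^ 2 by field_simp; ring]
      exact div_ne_zero (neg_ne_zero.mpr (mul_ne_zero (pow_ne_zero _ hk11) hk21)) (pow_ne_zero _ hk0)
    have hZ0 : Herm.frobQ hF Z ≠ 0 := by simpa using heb
    have hS0 : S ≠ 0 := fun h0 => by
      have e1 := congrArg (Herm.frobQ hF) h0
      rw [hSdef, map_add, map_mul, map_mul, hσk, map_sub, hk, map_one, hf.involutive, map_zero] at e1
      exact hne (mul_right_cancel₀ heb (by linear_combination (k⁻¹ - 1) * h0 - (k - 1) * e1))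
    have hu1 : h (a + b) (a₁ + b₁) = S := by
      rw [hf.add_left, Herm.add_right hf, Herm.add_right hf, hts 0 a haD a₁ ha₁D, hts 1 b hbD b₁ hb₁D, hX, hY]
      ring
    set c := Herm.frobQ hF (ζ / S) with hc
    have hσc : Herm.frobQ hF c = ζ / S := hf.involutive _
    have hu2 : h (a₁ + b₁) (a + b) = Herm.frobQ hF S := by rw [hf.herm, hu1]
    have hiso' : h ((1 : F) • (a + b) + c • (a₁ + b₁)) ((1 : F) • (a + b) + c • (a₁ + b₁)) = 0 := by
      have r1 : h (a + b) (a + b) = 0 := by rw [← hueq]; exact huu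
      have r2 := hC₁.1
      generalize a + b = s₁, a₁ + b₁ = s₂ at r1 r2 hu1 hu2 ⊢
      rw [one_smul, hf.add_left, Herm.add_right hf, Herm.add_right hf, hf.smul_left, hf.smul_left,
        Herm.smul_right hf, Herm.smul_right hf, r1, r2, hu1, hu2, hσc, hc, map_div₀, hζ,
        div_mul_cancel₀ _ hS0, div_mul_cancel₀ _ (by simpa using hS0)]
      ring
    have hnew := Herm.centres_pair hf hiso (hueq ▸ hC) hC₁ (by rw [hu1]; exact hS0) hiso'
    rw [show (1 : F) • (a + b) + c • (a₁ + b₁) = a + c • a₁ + (b + c • b₁) by module] at hnew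
    refine Or.inr ⟨_, (D 0).add_mem haD ((D 0).smul_mem c ha₁D), _, (D 1).add_mem hbD ((D 1).smul_mem c hb₁D),
      hnew, fun h0 => ?_⟩
    have hY' : h a₁ b = (k - 1) * Z := by
      rw [hf.herm, hY, map_mul, map_sub, hk, map_one, hf.involutive]
    rw [hf.add_left, Herm.add_right hf, Herm.add_right hf, hf.smul_left, hf.smul_left, Herm.smul_right hf,
      Herm.smul_right hf, hab, hab₁, hX, hY', hσc, hc, map_div₀, hζ] at h0
    have hσS : Herm.frobQ hF S ≠ 0 := by simpa using hS0
    have h5 : ((k⁻¹ - 1) * Z) * Herm.frobQ hF S - ((k - 1) * Z) * S = 0 := by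
      field_simp at h0
      have : ζ * (((k⁻¹ - 1) * Z) * Herm.frobQ hF S - ((k - 1) * Z) * S) = 0 := by
        first
          | linear_combination h0
          | (field_simp; linear_combination h0)
      exact (mul_eq_zero.mp this).resolve_left hζ0
    rw [hSdef, map_add, map_mul, map_mul, hσk, map_sub, hk, map_one, hf.involutive] at h5
    refine mul_ne_zero (mul_ne_zero hne heb) hZ0 ?_
    linear_combination h5
  -- a centre in a member
  obtain ⟨l₀, w₀, hw₀, hw₀0, hw₀C⟩ : ∃ l, ∃ w ∈ D l, w ≠ 0 ∧ w ∈ Herm.centres hf M := by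
    rcases hstep with h1 | ⟨a', ha', b', hb', hC', hne'⟩
    · exact h1
    set δ := h a' b' with hδ
    have hδs : Herm.frobQ hF δ = -δ := by
      have e := hC'.1
      rw [hf.add_left, Herm.add_right hf, Herm.add_right hf, hts 0 a' ha' a' ha', hts 1 b' hb' b' hb'] at e
      rw [hδ, Herm.sigma_apply hf]
      linear_combination e
    set w := (Herm.frobQ hF δ⁻¹) • b' with hw
    have haw : h a' w = 1 := by rw [hw, Herm.smul_right hf, hf.involutive, inv_mul_cancel₀ hne']
    obtain ⟨t, htM, ht⟩ := htorus a' ha' w ((D 1).smul_mem _ hb') haw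
    have hta : (t : Mat) *ᵥ a' = k • a' := by
      rw [ht, haw, hts 0 a' ha' a' ha']; module
    have hb'a : h b' a' = -δ := by rw [hf.herm, ← hδ, hδs]
    have htb : (t : Mat) *ᵥ b' = k⁻¹ • b' := by
      have hsd : Herm.frobQ hF δ⁻¹ * (-δ) = 1 := by
        rw [map_inv₀, hδs]; field_simp
      rw [ht, hts 1 b' hb' w ((D 1).smul_mem _ hb'), hb'a, hw, smul_smul, mul_assoc, mul_comm (-δ), hsd]
      module
    have hC'' := Herm.centres_conj hf hiso htM hC'
    rw [Matrix.mulVec_add, hta, htb] at hC''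
    have hne'' : h (a' + b') (k • a' + k⁻¹ • b') ≠ 0 := by
      rw [hf.add_left, Herm.add_right hf, Herm.add_right hf, Herm.smul_right hf, Herm.smul_right hf,
        Herm.smul_right hf, Herm.smul_right hf, hts 0 a' ha' a' ha', hts 1 b' hb' b' hb', hb'a, ← hδ, hk, map_inv₀,
        hk]
      intro h0
      exact mul_ne_zero hne' hkinv (by linear_combination h0)
    have e : (-k) • (a' + b') + (1 : F) • (k • a' + k⁻¹ • b') = (k⁻¹ - k) • b' := by module
    have := Herm.centres_pair hf hiso hC' hC'' hne'' (k := -k) (l := 1) (by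
      rw [e, hf.smul_left, Herm.smul_right hf, hts 1 b' hb' b' hb', mul_zero, mul_zero])
    rw [e] at this
    refine ⟨1, _, (D 1).smul_mem _ hb', smul_ne_zero hkinv ?_, this⟩
    rintro rfl
    exact hne' (Herm.zero_right hf _)
  -- the members are covered
  have hcover : ∀ (l l' : Fin 2), l ≠ l' → ∀ u ∈ D l, u ≠ 0 → u ∈ Herm.centres hf M →
      ∀ u' ∈ D l, u' ∈ Herm.centres hf M := by
    intro l l' hll u hu hu0 huC u' hu'
    by_cases hsp : u' ∈ Submodule.span F {u}
    · obtain ⟨a', rfl⟩ := Submodule.mem_span_singleton.mp hsp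
      exact Herm.centres_smul hf huC a'
    obtain ⟨w, hw, hw1, hw2⟩ := hfind hll u hu (Submodule.span F {u' - u}) (fun hmem => by
      obtain ⟨a', ha'⟩ := Submodule.mem_span_singleton.mp hmem
      have : a' ≠ 0 := fun h' => hu0 (by rw [← ha', h', zero_smul])
      refine hsp (Submodule.mem_span_singleton.mpr ⟨a'⁻¹ + 1, ?_⟩)
      rw [add_smul, one_smul]
      conv_lhs => arg 1; rw [← ha', smul_smul, inv_mul_cancel₀ this, one_smul]
      abel)
    have h0 : h (u' - u) w = 0 := hw2 _ ((D l).sub_mem hu' hu) (Submodule.mem_span_singleton_self _)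
    have hd := (D l).sub_mem hu' hu
    have hmem := hHM ⟨uX_stab hf hts hll hd hw (hts l _ hd _ hd) (hts l' w hw w hw) h0 1,
      uX_mem_su hF (hts l _ hd _ hd) (hts l' w hw w hw) h0 1⟩
    have := Herm.centres_conj hf hiso hmem huC
    rw [uX_mulVec, hts l u hu _ hd, hw1, one_mul, one_smul, mul_zero, zero_smul, sub_zero,
      add_sub_cancel] at this
    exact this
  obtain ⟨s, hs, hsmap⟩ := exists_upair_swap hF hD hts
  have hsw := Herm.centres_conj hf hiso (hHM hs) hw₀C
  have hsw0 : (s : Mat) *ᵥ w₀ ≠ 0 := fun h' =>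
    hw₀0 (gl_mulVec_injective s (h'.trans (Matrix.mulVec_zero _).symm))
  have hCD : ∀ l, ∀ v ∈ D l, v ∈ Herm.centres hf M := by
    intro l v hv
    obtain ⟨l', hl'⟩ := exists_ne l
    by_cases hl : l = l₀
    · exact hcover l l' hl'.symm w₀ (hl ▸ hw₀) hw₀0 hw₀C v hv
    · exact hcover l l' hl'.symm _ (hsmap l₀ l (Ne.symm hl) w₀ hw₀) hsw0 hsw v hv
  have hinv : ∀ d : F, Herm.frobQ hF d = -d → Herm.frobQ hF d⁻¹ = -d⁻¹ := fun d hd => by
    rw [map_inv₀, hd, inv_neg]
  have h01 : (0 : Fin 2) ≠ 1 := by decide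
  have hgen : ∀ u ∈ D 0, ∀ w ∈ D 1, h u w + h w u = 0 → h w u ≠ 0 → u + w ∈ Herm.centres hf M := by
    intro u hu w hw huw hne
    have hsk : Herm.frobQ hF (h w u) = -h w u := by
      rw [Herm.sigma_apply hf]; linear_combination huw
    obtain ⟨huu, hTu⟩ := hCD 0 u hu
    have := Herm.centres_conj hf hiso (hTu _ (hinv _ hsk)) (hCD 1 w hw)
    rw [Herm.uT_mulVec, inv_mul_cancel₀ hne, one_smul, add_comm] at this
    exact this
  refine Herm.su_le_of_uT hF le_rfl fun v hvv d hd => ?_
  suffices hv : v ∈ Herm.centres hf M by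
    obtain ⟨_, hv'⟩ := hv
    exact hv' d hd
  set u := comp hD 0 v with hu
  set w := comp hD 1 v with hw
  have hv : v = u + w := (hsum h01 v).symm
  have hu' : u ∈ D 0 := comp_mem hD 0 v
  have hw' : w ∈ D 1 := comp_mem hD 1 v
  by_cases hw0 : w = 0
  · exact hCD 0 v (by rw [hv, hw0, add_zero]; exact hu')
  have huw : h u w + h w u = 0 := by
    rw [hv, hf.add_left, Herm.add_right hf, Herm.add_right hf, hts 0 u hu' u hu', hts 1 w hw' w hw'] at hvv
    linear_combination hvv
  by_cases hμ : h w u = 0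
  · obtain ⟨u₁, hu₁, hu₁1, -⟩ := hfind h01.symm w hw' ⊥ (by simpa using hw0)
    have hu₁w : h (ζ • u₁) w = ζ := by
      rw [hf.smul_left, ← Herm.sigma_apply hf w u₁, hu₁1, map_one, mul_one]
    have hwu₁ : h w (ζ • u₁) = -ζ := by rw [← Herm.sigma_apply hf _ w, hu₁w, hζ]
    have hu₁' : ζ • u₁ ∈ D 0 := (D 0).smul_mem _ hu₁
    obtain ⟨hmm, hTm⟩ := hgen _ hu₁' w hw' (by rw [hu₁w, hwu₁, add_neg_cancel])
      (by rw [hwu₁]; exact neg_ne_zero.mpr hζ0)
    have := Herm.centres_conj hf hiso (hTm _ (hinv _ (by rw [map_neg, hζ]) : _)) (hCD 0 _ ((D 0).sub_mem hu' hu₁'))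
    rw [Herm.uT_mulVec, Herm.add_right hf, hts 0 _ ((D 0).sub_mem hu' hu₁') _ hu₁', zero_add,
      Herm.sub_left hf, show h u w = 0 by linear_combination huw - hμ, hu₁w, zero_sub,
      inv_mul_cancel₀ (neg_ne_zero.mpr hζ0), one_smul] at this
    rw [hv]
    convert this using 1
    abel
  · rw [hv]; exact hgen u hu' w hw' huw hμ

end Cfsg.Agent.H2.SU4
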