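import Cfsg.Agent.H60.SULow.Pair
import Cfsg.Agent.H2.SU4.Move

set_option autoImplicit false
set_option linter.unusedSectionVars false

/-!
Two elementary tools for the stabiliser of a pair of totally isotropic planes: transvections obtained from the
commutators of the radical elements of two totally isotropic lines through one point, and the torus of a
hyperbolic pair with fixed scalars.
-/

namespace Cfsg.Agent.H2.SU4

open scoped Matrix
open Cfsg.Agent.H98 Cfsg.Agent.H98.Herm

variable {ι : Type} [Fintype ι] [DecidableEq ι] {F : Type*} [Field F] [Finite F]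
variable {σ : F ≃+* F} {f : (ι → F) → (ι → F) → F} (hf : Cfsg.Geo.IsUnitaryForm σ f)

local notation "Mat" => Matrix ι ι F

include hf

/-- The parameter set: a fixed scalar other than `0` and `1`, radical elements of the line `u x` with fixed
parameter and one family of radical elements of the line `u v`. -/
theorem transvection_of_lines {M : Subgroup (GL ι F)} {u x v : ι → F} (hu : f u u = 0) (hx : f x x = 0)
    (hv : f v v = 0) (hux : f u x = 0) (huv : f u v = 0) (hG : f x v ≠ 0) {k : F} (hk : σ k = k) (hk0 : k ≠ 0)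
    (hk1 : k ≠ 1)
    (hS : ∀ c, σ c = c → ∃ S ∈ M, ∀ y, (S : Mat) *ᵥ y = y + (c * f y u) • x - (c * f y x) • u)
    {A t m : F} (hT : ∀ s, σ s = s → ∃ T ∈ M, ∀ y, (T : Mat) *ᵥ y =
      y + (s * (A * f y u + t * f y v)) • u + (s * (m * f y v - σ t * f y u)) • v)
    (hm : σ m = -m) (hgood : m ≠ 0 ∨ σ (f x v * t) ≠ f x v * t) :
    u ∈ centres hf M := by
  have hxu := (eq_zero_comm hf).mp hux
  have hvu := (eq_zero_comm hf).mp huv
  set G := f x v with hGdef
  have hGσ : f v x = σ G := by rw [hGdef, sigma_apply hf]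
  set z := σ (G * t) - G * t with hz
  set N := G * σ G with hN
  have hE : ∀ c, σ c = c → ∀ s, σ s = s → ∃ E ∈ M, ∀ y, (E : Mat) *ᵥ y = y +
      ((c * s * z + c * c * s * m * N) * f y u) • u - ((c * s * m * σ G) * f y v) • u -
      ((c * s * m * G) * f y u) • v := by
    intro c hc s hs
    obtain ⟨S₁, S₁M, hS₁⟩ := hS c hc
    obtain ⟨S₂, S₂M, hS₂⟩ := hS (-c) (by rw [map_neg, hc])
    obtain ⟨T₁, T₁M, hT₁⟩ := hT s hs
    obtain ⟨T₂, T₂M, hT₂⟩ := hT (-s) (by rw [map_neg, hs])
    refine ⟨S₁ * T₁ * S₂ * T₂, M.mul_mem (M.mul_mem (M.mul_mem S₁M T₁M) S₂M) T₂M, fun y => ?_⟩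
    simp only [Units.val_mul, ← Matrix.mulVec_mulVec, hS₁, hS₂, hT₁, hT₂, hf.add_left, sub_left hf, hf.smul_left,
      hu, hx, hv, hux, hxu, huv, hvu, hGσ, ← hGdef, mul_zero, add_zero, zero_add, sub_zero, zero_sub]
    rw [hz, map_mul, hN]
    module
  have hN0 : N ≠ 0 := mul_ne_zero hG (by simpa using hG)
  have hNσ : σ N = N := by rw [hN, map_mul, hf.involutive, mul_comm]
  refine ⟨hu, fun d hd => ?_⟩
  by_cases hm0 : m = 0
  · have hz0 : z ≠ 0 := sub_ne_zero.mpr (hgood.resolve_left (not_not_intro hm0))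
    have hzσ : σ z = -z := by rw [hz, map_sub, hf.involutive, neg_sub]
    obtain ⟨E, hEM, hEy⟩ := hE (d / z) (by rw [map_div₀, hd, hzσ, neg_div_neg_eq]) 1 (map_one σ)
    have : uT hf hu d = E := by
      refine gl_ext fun y => ?_
      rw [hEy, uT_mulVec]
      simp only [hm0, mul_zero, zero_mul, zero_smul, sub_zero, mul_one, add_zero, div_mul_cancel₀ _ hz0]
    rw [this]; exact hEM
  · set s := d / ((k - k * k) * m * N) with hs
    have hkk : k - k * k ≠ 0 := by
      rw [show k - k * k = k * (1 - k) by ring]; exact mul_ne_zero hk0 (sub_ne_zero.mpr (Ne.symm hk1))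
    have hden : (k - k * k) * m * N ≠ 0 := mul_ne_zero (mul_ne_zero hkk hm0) hN0
    have hsσ : σ s = s := by
      rw [hs, map_div₀, map_mul, map_mul, map_sub, map_mul, hd, hk, hm, hNσ, mul_neg, neg_mul, neg_div_neg_eq]
    have hds : d = (k - k * k) * m * N * s := by rw [hs, mul_div_cancel₀ _ hden]
    obtain ⟨E₁, hE₁, hy₁⟩ := hE 1 (map_one σ) (k * s) (by rw [map_mul, hk, hsσ])
    obtain ⟨E₂, hE₂, hy₂⟩ := hE k hk s hsσ
    have : uT hf hu d * E₂ = E₁ := by
      refine gl_ext fun y => ?_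
      simp only [Units.val_mul, ← Matrix.mulVec_mulVec, hy₁, hy₂, uT_mulVec, hf.add_left, sub_left hf, hf.smul_left,
        hu, hvu, mul_zero, add_zero, sub_zero, hds]
      module
    rw [eq_mul_inv_of_mul_eq this]
    exact M.mul_mem hE₁ (M.inv_mem hE₂)

/-- The torus of a hyperbolic pair with a fixed scalar, as a product of transvections. -/
theorem exists_torus {e w : ι → F} (he : f e e = 0) (hw : f w w = 0) (hew : f e w = 1) {k : F} (hk : σ k = k)
    (hk0 : k ≠ 0) :
    ∃ g : GL ι F, (∀ y, (g : Mat) *ᵥ y = y + ((k - 1) * f y w) • e + ((k⁻¹ - 1) * f y e) • w) ∧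
      (∀ a b, f ((g : Mat) *ᵥ a) ((g : Mat) *ᵥ b) = f a b) ∧ g ∈ Cfsg.Geo.specialLinear ι F := by
  obtain ⟨a, ha0, ha⟩ := exists_skew hf
  have hwe : f w e = 1 := by rw [hf.herm, hew, map_one]
  set a' := -(k * a) with ha'
  set b := -a⁻¹ with hb
  set b' := (k * a)⁻¹ with hb'
  have h1 : σ b = -b := by rw [hb, map_neg, map_inv₀, ha, inv_neg]
  have h2 : σ a' = -a' := by rw [ha', map_neg, map_mul, hk, ha, mul_neg]
  have h3 : σ b' = -b' := by rw [hb', map_inv₀, map_mul, hk, ha, mul_neg, inv_neg]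
  set g := uT hf he a' * uT hf hw b' * uT hf he a' * (uT hf he a * uT hf hw b * uT hf he a) with hg
  refine ⟨g, fun y => ?_, fun x y => ?_, ?_⟩
  · simp only [hg, Units.val_mul, ← Matrix.mulVec_mulVec, uT_mulVec, hf.add_left, hf.smul_left, he, hw, hew, hwe,
      mul_zero, mul_one, add_zero, zero_add]
    match_scalars <;> simp only [ha', hb, hb'] <;> field_simp <;> ring
  · simp only [hg, Units.val_mul, ← Matrix.mulVec_mulVec, uT_iso hf he h2, uT_iso hf hw h3, uT_iso hf he ha,
      uT_iso hf hw h1]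
  · refine mul_mem (mul_mem (mul_mem ?_ ?_) ?_) (mul_mem (mul_mem ?_ ?_) ?_) <;> exact transGL_mem_sl _ _ _

end Cfsg.Agent.H2.SU4
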