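import Cfsg.Agent.H2.SU4.Stab1

set_option autoImplicit false
set_option linter.unusedSectionVars false

/-!
For `q ≥ 3` the stabiliser in `SU(4, q)` of a decomposition into two orthogonal non-degenerate planes is maximal
(conjunct (4) of the list for `SU(4, q)`).
-/

namespace Cfsg.Agent.H2.SU4

open scoped Matrix
open Cfsg.Agent.H98 Cfsg.Agent.H98.Herm

variable {F : Type*} [Field F] [Fintype F] {q : ℕ} (hF : Fintype.card F = q ^ 2)

local notation "Mat" => Matrix (Fin 4) (Fin 4) F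
local notation "G₁" => Cfsg.GU 4 F q ⊓ Cfsg.Geo.specialLinear (Fin 4) F
local notation "h" => Cfsg.hermForm 4 F q

include hF

/-- A non-zero scalar with `σ x ≠ ± x`. -/
theorem exists_frob_ne : ∃ z : F, z ≠ 0 ∧ frobQ hF z ≠ z ∧ frobQ hF z ≠ -z := by
  classical
  obtain ⟨z, hz⟩ := IsCyclic.exists_monoid_generator (α := Fˣ)
  have ho : orderOf z = Nat.card Fˣ := orderOf_eq_card_of_forall_mem_zpowers fun x => by
    obtain ⟨n, rfl⟩ := hz x
    exact Subgroup.npow_mem_zpowers z n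
  rw [Nat.card_units, Nat.card_eq_fintype_card, hF] at ho
  have hq := Cfsg.Agent.H3.two_le_q hF
  have key : ((z : F)) ^ (2 * (q - 1)) ≠ 1 := fun he => by
    have h1 : z ^ (2 * (q - 1)) = 1 := Units.ext (by rw [Units.val_pow_eq_pow_val, he, Units.val_one])
    have h2 := Nat.le_of_dvd (by omega) (orderOf_dvd_of_pow_eq_one h1)
    rw [ho] at h2
    have h3 : 2 * q ≤ q ^ 2 := by rw [sq]; exact Nat.mul_le_mul_right q hq
    omega
  refine ⟨z, z.ne_zero, fun he => key ?_, fun he => key ?_⟩ <;>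
  · rw [frobQ_apply] at he
    have h3 : (z : F) ^ (q - 1) * z = (z : F) ^ q := by rw [← pow_succ]; congr 1; omega
    rw [he] at h3
    rw [mul_comm 2, pow_mul]
    first
      | rw [(mul_eq_right₀ z.ne_zero).mp h3, one_pow]
      | rw [show (z : F) ^ (q - 1) = -1 from mul_right_cancel₀ z.ne_zero (by rw [h3, neg_one_mul]), neg_one_sq]

/-- A non-zero scalar of the fixed field other than minus one, for `q ≥ 3`. -/
theorem exists_fixed_ne (h3 : 3 ≤ q) : ∃ c : F, c ≠ 0 ∧ c ≠ -1 ∧ frobQ hF c = c := by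
  classical
  by_cases h2 : (1 : F) = -1
  swap
  · exact ⟨1, one_ne_zero, h2, map_one _⟩
  obtain ⟨z, hz⟩ := IsCyclic.exists_monoid_generator (α := Fˣ)
  have ho : orderOf z = Nat.card Fˣ := orderOf_eq_card_of_forall_mem_zpowers fun x => by
    obtain ⟨n, rfl⟩ := hz x
    exact Subgroup.npow_mem_zpowers z n
  rw [Nat.card_units, Nat.card_eq_fintype_card, hF] at ho
  refine ⟨(z : F) ^ (q + 1), pow_ne_zero _ z.ne_zero, fun he => ?_, ?_⟩
  · rw [← h2] at he
    have h1 : z ^ (q + 1) = 1 := Units.ext (by rw [Units.val_pow_eq_pow_val, he, Units.val_one])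
    have h4 := Nat.le_of_dvd (by omega) (orderOf_dvd_of_pow_eq_one h1)
    rw [ho] at h4
    have h5 : 3 * q ≤ q ^ 2 := by rw [sq]; exact Nat.mul_le_mul_right q h3
    omega
  · rw [map_pow, pow_succ, pow_succ, frobQ_apply, ← pow_mul, ← sq, ← hF, FiniteField.pow_card]
    exact mul_comm _ _

omit [Fintype F] in
omit hF in
theorem mem_decompStab {D : Fin 2 → Submodule F (Fin 4 → F)} {g : GL (Fin 4) F} (π : Equiv.Perm (Fin 2))
    [Finite F] (hdim : ∀ i, Module.finrank F (D i) = 2)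
    (hg : ∀ i, ∀ x ∈ D i, (g : Mat) *ᵥ x ∈ D (π i)) : g ∈ Cfsg.Geo.decompositionStabilizer D := by
  refine ⟨π, fun i => Submodule.eq_of_le_of_finrank_le ?_ ?_⟩
  · rintro _ ⟨x, hx, rfl⟩
    rw [Matrix.toLin'_apply]
    exact hg i x hx
  · rw [hdim (π i), ← (Submodule.equivMapOfInjective (Matrix.toLin' (g : Mat))
      (fun a b hab => gl_mulVec_injective g (by simpa [Matrix.toLin'_apply] using hab)) (D i)).finrank_eq, hdim i]

/-- The stabiliser of two orthogonal non-degenerate planes is maximal for `q ≥ 3`. -/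
theorem su4_planes_maximal (h3 : 3 ≤ q) (D : Fin 2 → Submodule F (Fin 4 → F))
    (hD : Cfsg.Geo.IsNondegenerateMDecomposition h 2 D) :
    Cfsg.Geo.IsMaximalIn G₁ (Cfsg.Geo.decompositionStabilizer D ⊓ G₁) := by
  classical
  set hf := isUnitary_std (n := 4) hF with hfdef
  obtain ⟨ζ, hζ0, hζ⟩ := exists_skew hf
  set W := D 0 with hWdef
  set P := D 1 with hPdef
  have hW : ∀ x ∈ W, x ∈ perp hf W → x = 0 := perp_cond_of_nondegenerate hF (hD.nondegenerate 0)
  have hP : ∀ x ∈ P, x ∈ perp hf P → x = 0 := perp_cond_of_nondegenerate hF (hD.nondegenerate 1)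
  have hdim : ∀ i, Module.finrank F (D i) = 2 := hD.decomp.finrank_eq
  have horth : ∀ a ∈ W, ∀ b ∈ P, h a b = 0 ∧ h b a = 0 := fun a ha b hb =>
    ⟨hD.orthogonal 0 1 (by decide) a ha b hb, hD.orthogonal 1 0 (by decide) b hb a ha⟩
  have hperpW : perp hf W = P := by
    refine (Submodule.eq_of_le_of_finrank_le (fun b hb => (mem_perpW hf).mpr fun a ha => (horth a ha b hb).2) ?_).symm
    have h1 := Submodule.finrank_add_eq_of_isCompl (isCompl_perp hf hW)
    rw [Module.finrank_fin_fun, hWdef, hdim 0] at h1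
    rw [hdim 1, hWdef]
    omega
  have hperpP : perp hf P = W := by rw [← hperpW, perp_perp hf]
  have hcompl : IsCompl W P := hperpW ▸ isCompl_perp hf hW
  have hdecomp : ∀ v, ∃ a ∈ W, ∃ b ∈ P, v = a + b := fun v => by
    obtain ⟨a, ha, b, hb, he⟩ := Submodule.mem_sup.mp (hcompl.sup_eq_top.ge (Submodule.mem_top (x := v)))
    exact ⟨a, ha, b, hb, he.symm⟩
  have hzero : ∀ x ∈ W, x ∈ P → x = 0 := fun x hx hx' => hW x hx (hperpW.symm ▸ hx')
  have hsplit : ∀ a ∈ W, ∀ b ∈ P, h (a + b) (a + b) = h a a + h b b := fun a ha b hb => by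
    rw [hf.add_left, add_right hf, add_right hf, (horth a ha b hb).1, (horth a ha b hb).2]; ring
  have hmemH : ∀ t ∈ G₁, (∀ x ∈ W, (t : Mat) *ᵥ x ∈ W) → (∀ x ∈ P, (t : Mat) *ᵥ x ∈ P) →
      t ∈ Cfsg.Geo.decompositionStabilizer D ⊓ G₁ := fun t ht hw hp => by
    refine ⟨mem_decompStab 1 hdim fun i => ?_, ht⟩
    fin_cases i
    · exact hw
    · exact hp
  obtain ⟨e, he, e', he', ee, e'e', e1, e2⟩ := exists_pair_nondeg hf hW (hdim 0).ge
  obtain ⟨p, hp, p', hp', pp, p'p', p1, p2⟩ := exists_pair_nondeg hf hP (hdim 1).ge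
  have he0 : e ≠ 0 := fun h0 => by rw [h0, zero_left hf] at e1; exact zero_ne_one e1
  refine isMaximalIn_of inf_le_right ?_ fun M hHM hMK g hg hgH => ?_
  · have hvv : h (e + p) (e + p) = 0 := by rw [hsplit e he p hp, ee, pp, add_zero]
    refine ⟨uT hf hvv ζ, uT_mem_su hF hvv hζ, fun hmem => ?_⟩
    obtain ⟨π, hπ⟩ := hmem.1
    have h1 : (uT hf hvv ζ : Mat) *ᵥ e' ∈ D (π 0) := hπ 0 ▸ ⟨e', he', by rw [Matrix.toLin'_apply]⟩
    rw [uT_mulVec, add_right hf, e2, (horth e' he' p hp).1, add_zero, mul_one, smul_add, ← add_assoc] at h1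
    have hmem1 : e' + ζ • e ∈ W := W.add_mem he' (W.smul_mem _ he)
    rcases Fin.exists_fin_two.mp ⟨π 0, rfl⟩ with h0 | h0 <;> rw [h0] at h1
    · have h2 := hzero _ (by simpa using W.sub_mem h1 hmem1) (P.smul_mem ζ hp)
      rw [smul_eq_zero] at h2
      rw [h2.resolve_left hζ0, zero_left hf] at p1
      exact zero_ne_one p1
    · have h2 := hzero _ hmem1 (by simpa using P.sub_mem h1 (P.smul_mem ζ hp))
      have h3 : h (e' + ζ • e) e = 0 := by rw [h2, zero_left hf]
      rw [hf.add_left, hf.smul_left, e2, ee, mul_zero, add_zero] at h3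
      exact one_ne_zero h3
  have hiso : ∀ k ∈ M, ∀ a b, h ((k : Mat) *ᵥ a) ((k : Mat) *ᵥ b) = h a b :=
    fun k hk => (hMK hk).1
  have hC : ∀ v, h v v = 0 → (v ∈ W ∨ v ∈ P) → v ∈ centres hf M := fun v hvv hv => ⟨hvv, fun d hd => hHM <| by
    have hWv : v ∈ W ∨ v ∈ perp hf W := by rw [hperpW]; exact hv
    have hPv : v ∈ P ∨ v ∈ perp hf P := by rw [hperpP]; exact hv.symm
    exact hmemH _ (uT_mem_su hF hvv hd) (fun x hx => (mem_subspaceStabilizer.mp (uT_stab hf hvv hWv d) x).mp hx)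
      fun x hx => (mem_subspaceStabilizer.mp (uT_stab hf hvv hPv d) x).mp hx⟩
  -- a mixed centre
  obtain ⟨r, hrC, hrW, hrP⟩ : ∃ r ∈ centres hf M, r ∉ W ∧ r ∉ P := by
    by_contra hc
    push Not at hc
    have hor : ∀ v ∈ W, h v v = 0 → (g : Mat) *ᵥ v ∈ W ∨ (g : Mat) *ᵥ v ∈ P := fun v hv hvv =>
      or_iff_not_imp_left.mpr (hc _ (centres_conj hf hiso hg (hC v hvv (Or.inl hv))))
    have hlink : ∀ v w, (g : Mat) *ᵥ v ∈ W → (g : Mat) *ᵥ w ∈ P → h v w = 0 := fun v w hv hw => by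
      rw [← hiso g hg]; exact (horth _ hv _ hw).1
    have key : ∀ X Y : Submodule F (Fin 4 → F), (∀ x ∈ X, x ∈ Y → x = 0) →
        (∀ v ∈ W, h v v = 0 → (g : Mat) *ᵥ v ∈ X ∨ (g : Mat) *ᵥ v ∈ Y) →
        (∀ v w, (g : Mat) *ᵥ v ∈ X → (g : Mat) *ᵥ w ∈ Y → h v w = 0) →
        (g : Mat) *ᵥ e ∈ X → ∀ v ∈ W, (g : Mat) *ᵥ v ∈ X := by
      intro X Y hXY hor' hl hgeX
      have hle : W ≤ X.comap (Matrix.mulVecLin (g : Mat)) := le_of_isotropic hf he he' ee e'e' e1 e2 fun v hv hvv => by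
        refine (hor' v hv hvv).elim id fun hvY => ?_
        have h1 := hl e v hgeX hvY
        have hsum : h (v + e) (v + e) = 0 := by
          rw [hf.add_left, add_right hf, add_right hf, hvv, ee, h1, (eq_zero_comm hf).mp h1]; ring
        rcases hor' (v + e) (W.add_mem hv he) hsum with h2 | h2 <;> rw [Matrix.mulVec_add] at h2
        · simpa using X.sub_mem h2 hgeX
        · have h3 := hXY _ hgeX (by simpa using Y.sub_mem h2 hvY)
          exact absurd (gl_mulVec_injective g (h3.trans (Matrix.mulVec_zero _).symm)) he0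
      exact fun v hv => hle hv
    apply hgH
    refine ⟨?_, hMK hg⟩
    rcases hor e he ee with hge | hge
    · have h1 := key W P hzero hor hlink hge
      refine mem_decompStab 1 hdim fun i => ?_
      fin_cases i
      · exact h1
      · intro x hx
        change (g : Mat) *ᵥ x ∈ P
        rw [← hperpW, mem_perpW hf]
        intro y hy
        have hy' : ((g⁻¹ : GL (Fin 4) F) : Mat) *ᵥ y ∈ W :=
          ((mem_subspaceStabilizer.mp (stab_of_maps_into h1)) _).mpr (by rwa [gl_mulVec_inv])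
        rw [← gl_mulVec_inv g y, hiso g hg]
        exact (horth _ hy' x hx).2
    · have h1 := key P W (fun x hx hx' => hzero x hx' hx) (fun v hv hvv => (hor v hv hvv).symm)
        (fun v w hv hw => (eq_zero_comm hf).mp (hlink w v hw hv)) hge
      have heq : W.map (Matrix.mulVecLin (g : Mat)) = P := by
        refine Submodule.eq_of_le_of_finrank_le (Submodule.map_le_iff_le_comap.mpr h1) ?_
        rw [← (Submodule.equivMapOfInjective _ (gl_mulVec_injective g) W).finrank_eq, hdim 1]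
        exact (hdim 0).ge
      refine mem_decompStab (Equiv.swap 0 1) hdim fun i => ?_
      fin_cases i
      · exact h1
      · intro x hx
        change (g : Mat) *ᵥ x ∈ W
        rw [← hperpP, mem_perpW hf]
        intro y hy
        rw [← heq] at hy
        obtain ⟨y', hy', rfl⟩ := hy
        rw [Matrix.mulVecLin_apply, hiso g hg]
        exact (horth _ hy' x hx).2
  obtain ⟨a, ha, b, hb, rfl⟩ := hdecomp r
  have ha0 : a ≠ 0 := fun h0 => hrP (by rw [h0, zero_add]; exact hb)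
  have hb0 : b ≠ 0 := fun h0 => hrW (by rw [h0, add_zero]; exact ha)
  -- a mixed centre with anisotropic components
  obtain ⟨a₀, ha₀, b₀, hb₀, hC₀, hν⟩ : ∃ a₀ ∈ W, ∃ b₀ ∈ P, a₀ + b₀ ∈ centres hf M ∧ h a₀ a₀ ≠ 0 := by
    by_cases haa : h a a ≠ 0
    · exact ⟨a, ha, b, hb, hrC, haa⟩
    rw [not_not] at haa
    have hbb : h b b = 0 := by
      have := hsplit a ha b hb
      rw [hrC.1, haa, zero_add] at this
      exact this.symm
    obtain ⟨z, hz0, hz1, hz2⟩ := exists_frob_ne hF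
    set l := frobQ hF z / z with hl
    have hσz : frobQ hF z ≠ 0 := by simpa using hz0
    have hl1 : l ≠ 1 := fun h0 => hz1 (by rwa [hl, div_eq_one_iff_eq hz0] at h0)
    have hl2 : l ≠ -1 := fun h0 => hz2 (by rwa [hl, div_eq_iff hz0, neg_one_mul] at h0)
    have hσl : frobQ hF l = l⁻¹ := by rw [hl, map_div₀, hf.involutive, inv_div]
    have hl0 : l ≠ 0 := div_ne_zero hσz hz0
    obtain ⟨μ, hμ⟩ := exists_trace hf (a := (1 : F)) (map_one _)
    have hμ0 : μ ≠ 0 := fun h0 => by rw [h0, map_zero, add_zero] at hμ; exact zero_ne_one hμ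
    have hσμ : frobQ hF μ ≠ 0 := by simpa using hμ0
    obtain ⟨y, hy, hay⟩ : ∃ y ∈ W, h a y ≠ 0 := by
      by_contra hcc; push Not at hcc; exact ha0 (hW a ha ((mem_perpW hf).mpr hcc))
    obtain ⟨a', ha', a'a', aa', a'a⟩ := partner_in hf ha hy haa hay
    obtain ⟨y', hy', hby⟩ : ∃ y ∈ P, h b y ≠ 0 := by
      by_contra hcc; push Not at hcc; exact hb0 (hP b hb ((mem_perpW hf).mpr hcc))
    obtain ⟨b', hb', b'b', bb', b'b⟩ := partner_in hf hb hy' hbb hby
    set u := a + μ • a' with hu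
    set w := b + μ • b' with hw
    have huW : u ∈ W := W.add_mem ha (W.smul_mem _ ha')
    have hwP : w ∈ P := P.add_mem hb (P.smul_mem _ hb')
    have huu : h u u = 1 := by
      rw [hu, hf.add_left, add_right hf, add_right hf, hf.smul_left, hf.smul_left, smul_right hf, smul_right hf,
        haa, a'a', aa', a'a]
      linear_combination hμ
    have hwww : h w w = 1 := by
      rw [hw, hf.add_left, add_right hf, add_right hf, hf.smul_left, hf.smul_left, smul_right hf, smul_right hf,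
        hbb, b'b', bb', b'b]
      linear_combination hμ
    have hau : h a u = frobQ hF μ := by rw [hu, add_right hf, smul_right hf, haa, aa', zero_add, mul_one]
    have hbw : h b w = frobQ hF μ := by rw [hw, add_right hf, smul_right hf, hbb, bb', zero_add, mul_one]
    clear_value u w
    obtain ⟨g₁, h1, h1i, h1d⟩ := exists_qrefl hf u (l - 1)
      (by rw [map_sub, map_one, hσl, huu]; field_simp; ring)
    obtain ⟨g₂, h2, h2i, h2d⟩ := exists_qrefl hf w (l⁻¹ - 1)
      (by rw [map_sub, map_one, map_inv₀, hσl, hwww]; field_simp; ring)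
    have hm : ∀ x, ((g₂ * g₁ : GL (Fin 4) F) : Mat) *ᵥ x = (g₂ : Mat) *ᵥ ((g₁ : Mat) *ᵥ x) := fun x => by
      rw [Units.val_mul, Matrix.mulVec_mulVec]
    have hxW : ∀ x ∈ W, ((g₂ * g₁ : GL (Fin 4) F) : Mat) *ᵥ x = x + ((l - 1) * h x u) • u := fun x hx => by
      have hxu : x + ((l - 1) * h x u) • u ∈ W := W.add_mem hx (W.smul_mem _ huW)
      rw [hm, h1, h2, (horth _ hxu w hwP).1, mul_zero, zero_smul, add_zero]
    have hxP : ∀ x ∈ P, ((g₂ * g₁ : GL (Fin 4) F) : Mat) *ᵥ x = x + ((l⁻¹ - 1) * h x w) • w := fun x hx => by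
      rw [hm, h1, (horth u huW x hx).2, mul_zero, zero_smul, add_zero, h2]
    have hgM : g₂ * g₁ ∈ M := by
      refine hHM (hmemH _ ⟨fun x z => ?_, mem_sl_of_det hf ?_⟩ (fun x hx => ?_) fun x hx => ?_)
      · change h (((g₂ * g₁ : GL (Fin 4) F) : Mat) *ᵥ x) (((g₂ * g₁ : GL (Fin 4) F) : Mat) *ᵥ z) = _
        rw [hm, hm, h2i, h1i]
      · rw [Units.val_mul, Matrix.det_mul, h1d, h2d, huu, hwww, mul_one, mul_one, add_sub_cancel, add_sub_cancel,
          inv_mul_cancel₀ hl0]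
      · rw [hxW x hx]; exact W.add_mem hx (W.smul_mem _ huW)
      · rw [hxP x hx]; exact P.add_mem hx (P.smul_mem _ hwP)
    have hC' := centres_conj hf hiso hgM hrC
    rw [Matrix.mulVec_add, hxW a ha, hxP b hb, hau, hbw] at hC'
    set a₁ := a + ((l - 1) * frobQ hF μ) • u with ha₁
    set b₁ := b + ((l⁻¹ - 1) * frobQ hF μ) • w with hb₁
    have ha₁W : a₁ ∈ W := W.add_mem ha (W.smul_mem _ huW)
    have hb₁P : b₁ ∈ P := P.add_mem hb (P.smul_mem _ hwP)
    set N := μ * frobQ hF μ with hN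
    have hN0 : N ≠ 0 := mul_ne_zero hμ0 hσμ
    have hA : h a a₁ = (l⁻¹ - 1) * N := by
      rw [ha₁, add_right hf, smul_right hf, haa, hau, map_mul, map_sub, map_one, hσl, hf.involutive, hN]; ring
    have hB : h b b₁ = (l - 1) * N := by
      rw [hb₁, add_right hf, smul_right hf, hbb, hbw, map_mul, map_sub, map_one, map_inv₀, hσl, inv_inv,
        hf.involutive, hN]
      ring
    have ha₁₁ : h a₁ a₁ = 0 := by
      rw [← haa, ha₁, ← hau, ← hxW a ha]; exact hiso _ hgM a a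
    clear_value a₁ b₁
    set S := (l⁻¹ - 1) * N + (l - 1) * N with hS
    have hS0 : S ≠ 0 := by
      have e0 : S * l = (l - 1) * (l - 1) * N := by
        rw [hS]; field_simp; ring
      intro h0
      rw [h0, zero_mul, eq_comm] at e0
      exact mul_ne_zero (mul_ne_zero (sub_ne_zero.mpr hl1) (sub_ne_zero.mpr hl1)) hN0 e0
    set c := frobQ hF (ζ / S) with hc
    have hσc : frobQ hF c = ζ / S := hf.involutive _
    have hne : h (a + b) (a₁ + b₁) ≠ 0 := by
      rw [hf.add_left, add_right hf, add_right hf, (horth a ha b₁ hb₁P).1, (horth a₁ ha₁W b hb).2, hA, hB,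
        add_zero, zero_add]
      exact hS0
    have hvv : h ((1 : F) • (a + b) + c • (a₁ + b₁)) ((1 : F) • (a + b) + c • (a₁ + b₁)) = 0 := by
      have e5 : h (a + b) (a₁ + b₁) = S := by
        rw [hf.add_left, add_right hf, add_right hf, (horth a ha b₁ hb₁P).1, (horth a₁ ha₁W b hb).2, hA, hB, hS]
        ring
      have e6 : h (a₁ + b₁) (a + b) = frobQ hF S := by rw [hf.herm, e5]
      have r1 := hrC.1
      have r2 := hC'.1
      generalize a + b = s₁, a₁ + b₁ = s₂ at r1 r2 e5 e6 ⊢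
      rw [one_smul, hf.add_left, add_right hf, add_right hf, hf.smul_left, hf.smul_left, smul_right hf,
        smul_right hf, r1, r2, e5, e6, hσc, hc, map_div₀, hζ, mul_zero, mul_zero, zero_add, add_zero,
        div_mul_cancel₀ _ hS0, div_mul_cancel₀ _ (by simpa using hS0)]
      ring
    refine ⟨a + c • a₁, W.add_mem ha (W.smul_mem c ha₁W), b + c • b₁, P.add_mem hb (P.smul_mem c hb₁P), ?_, ?_⟩
    · have e7 := centres_pair hf hiso hrC hC' hne hvv
      rwa [show (1 : F) • (a + b) + c • (a₁ + b₁) = a + c • a₁ + (b + c • b₁) by module] at e7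
    · have e8 : h a₁ a = frobQ hF ((l⁻¹ - 1) * N) := by rw [hf.herm, hA]
      have hlm : l - 1 ≠ 0 := sub_ne_zero.mpr hl1
      have hr : (l⁻¹ - 1) * N / S = -1 / (l - 1) := by
        rw [div_eq_div_iff hS0 hlm, hS]; field_simp; ring
      rw [hf.add_left, add_right hf, add_right hf, hf.smul_left, hf.smul_left, smul_right hf, smul_right hf, haa,
        ha₁₁, hA, e8, hσc, hc, mul_zero, mul_zero, zero_add, add_zero, ← map_mul, div_mul_eq_mul_div,
        mul_div_assoc, hr, map_mul, map_div₀ (frobQ hF) (-1 : F), map_sub, map_neg, map_one, hσl, hζ]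
      intro h0
      have hlm' : l⁻¹ - 1 ≠ 0 := sub_ne_zero.mpr fun hh => hl1 (inv_eq_one.mp hh)
      field_simp at h0
      have : ζ * ((l - 1) * (l + 1)) = 0 := by linear_combination h0
      exact hζ0 ((mul_eq_zero.mp this).resolve_right (mul_ne_zero hlm fun hh => hl2 (eq_neg_of_add_eq_zero_left hh)))
  -- every mixed vector with anisotropic components
  have hcentA : ∀ a' ∈ W, ∀ b' ∈ P, h a' a' ≠ 0 → h (a' + b') (a' + b') = 0 → a' + b' ∈ centres hf M := by
    intro a' ha' b' hb' hn' hvv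
    obtain ⟨k, hk⟩ := exists_norm hf (a := h a' a' / h a₀ a₀) (by rw [map_div₀, sigma_apply hf, sigma_apply hf])
    have n1 : h (k • a₀) (k • a₀) = h a' a' := by
      rw [hf.smul_left, smul_right hf, ← mul_assoc, hk, div_mul_cancel₀ _ hν]
    have hrk := centres_smul hf hC₀ k
    rw [smul_add] at hrk
    have hka : k • a₀ ∈ W := W.smul_mem k ha₀
    have hkb : k • b₀ ∈ P := P.smul_mem k hb₀
    have n2 : h (k • b₀) (k • b₀) = h b' b' := by
      have e9 := hsplit _ hka _ hkb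
      rw [hrk.1, n1] at e9
      rw [hsplit a' ha' b' hb'] at hvv
      linear_combination -e9 - hvv
    have n3 : h (k • b₀) (k • b₀) ≠ 0 := fun h0 => by
      rw [hsplit a' ha' b' hb', ← n2, h0, add_zero] at hvv; exact hn' hvv
    obtain ⟨s, s1, s2, s3, s4, s5⟩ := exists_move hf hW (hdim 0).ge hka ha' (n1.symm ▸ hn') n1.symm
    obtain ⟨t, t1, t2, t3, t4, t5⟩ := exists_move hf hP (hdim 1).ge hkb hb' n3 n2.symm
    rw [hperpW] at s5
    rw [hperpP] at t5
    have hsM : s ∈ M := hHM (hmemH s ⟨s1, mem_sl_of_det hf s2⟩ s4 fun x hx => by rw [s5 x hx]; exact hx)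
    have htM : t ∈ M := hHM (hmemH t ⟨t1, mem_sl_of_det hf t2⟩ (fun x hx => by rw [t5 x hx]; exact hx) t4)
    have e10 := centres_conj hf hiso htM (centres_conj hf hiso hsM hrk)
    rwa [Matrix.mulVec_add, Matrix.mulVec_add, s3, s5 _ hkb, t3, t5 _ ha'] at e10
  refine su_le_of_uT hF le_rfl fun v hvv d hd => ?_
  suffices hv : v ∈ centres hf M by
    obtain ⟨_, hv'⟩ := hv
    exact hv' d hd
  obtain ⟨a', ha', b', hb', rfl⟩ := hdecomp v
  by_cases hn' : h a' a' ≠ 0
  · exact hcentA a' ha' b' hb' hn' hvv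
  rw [not_not] at hn'
  rcases eq_or_ne a' 0 with rfl | ha'0
  · rw [zero_add] at hvv ⊢; exact hC b' hvv (Or.inr hb')
  rcases eq_or_ne b' 0 with rfl | hb'0
  · rw [add_zero] at hvv ⊢; exact hC a' hvv (Or.inl ha')
  have hbb' : h b' b' = 0 := by rw [hsplit a' ha' b' hb', hn', zero_add] at hvv; exact hvv
  obtain ⟨y, hy, hay⟩ : ∃ y ∈ W, h a' y ≠ 0 := by
    by_contra hcc; push Not at hcc; exact ha'0 (hW a' ha' ((mem_perpW hf).mpr hcc))
  obtain ⟨a'', ha'', a2a2, aa2, a2a⟩ := partner_in hf ha' hy hn' hay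
  obtain ⟨y', hy', hby⟩ : ∃ y ∈ P, h b' y ≠ 0 := by
    by_contra hcc; push Not at hcc; exact hb'0 (hP b' hb' ((mem_perpW hf).mpr hcc))
  obtain ⟨b'', hb'', b2b2, bb2, b2b⟩ := partner_in hf hb' hy' hbb' hby
  obtain ⟨c, hc0, hc1, hc⟩ := exists_fixed_ne hF h3
  obtain ⟨μ, hμ⟩ := exists_trace hf (a := (1 : F)) (map_one _)
  -- `f(a', a₁) = ζ` and `f(b', b₁) = c ζ`
  set a₁ := (μ / ζ) • a' + (-ζ) • a'' with ha₁
  set b₁ := (-μ / (c * ζ)) • b' + (-(c * ζ)) • b'' with hb₁
  have ha₁W : a₁ ∈ W := W.add_mem (W.smul_mem _ ha') (W.smul_mem _ ha'')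
  have hb₁P : b₁ ∈ P := P.add_mem (P.smul_mem _ hb') (P.smul_mem _ hb'')
  have hA : h a' a₁ = ζ := by
    simp only [ha₁, add_right hf, smul_right hf, hn', aa2, mul_zero, zero_add, mul_one, map_neg, hζ, neg_neg]
  have hB : h b' b₁ = c * ζ := by
    simp only [hb₁, add_right hf, smul_right hf, hbb', bb2, mul_zero, zero_add, mul_one, map_neg, map_mul, hζ, hc]
    ring
  have hcζ : c * ζ ≠ 0 := mul_ne_zero hc0 hζ0
  have hAA : h a₁ a₁ = 1 := by
    simp only [ha₁, hf.add_left, add_right hf, hf.smul_left, smul_right hf, hn', a2a2, aa2, a2a, map_neg, map_div₀,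
      hζ, mul_zero, mul_one, zero_add, add_zero]
    field_simp
    linear_combination hμ
  have hBB : h b₁ b₁ = -1 := by
    simp only [hb₁, hf.add_left, add_right hf, hf.smul_left, smul_right hf, hbb', b2b2, bb2, b2b, map_neg, map_div₀,
      map_mul, hζ, hc, mul_zero, mul_one, zero_add, add_zero]
    field_simp
    linear_combination -hμ
  have hA' : h a₁ a' = -ζ := by rw [hf.herm, hA, hζ]
  have hB' : h b₁ b' = -(c * ζ) := by rw [hf.herm, hB, map_mul, hζ, hc, mul_neg]
  clear_value a₁ b₁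
  have m1 : a₁ + b₁ ∈ centres hf M :=
    hcentA a₁ ha₁W b₁ hb₁P (by rw [hAA]; exact one_ne_zero) (by rw [hsplit _ ha₁W _ hb₁P, hAA, hBB, add_neg_cancel])
  have n4 : h (a' - a₁) (a' - a₁) = 1 := by
    rw [sub_left hf, sub_right hf, sub_right hf, hn', hA, hA', hAA]; ring
  have n5 : h (b' - b₁) (b' - b₁) = -1 := by
    rw [sub_left hf, sub_right hf, sub_right hf, hbb', hB, hB', hBB]; ring
  have m2 : (a' - a₁) + (b' - b₁) ∈ centres hf M :=
    hcentA _ (W.sub_mem ha' ha₁W) _ (P.sub_mem hb' hb₁P) (by rw [n4]; exact one_ne_zero)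
      (by rw [hsplit _ (W.sub_mem ha' ha₁W) _ (P.sub_mem hb' hb₁P), n4, n5, add_neg_cancel])
  have e11 : (1 : F) • (a₁ + b₁) + (1 : F) • ((a' - a₁) + (b' - b₁)) = a' + b' := by module
  have := centres_pair hf hiso m1 m2 ?_ (k := 1) (l := 1) (by rw [e11]; exact hvv)
  · rwa [e11] at this
  rw [hf.add_left, add_right hf, add_right hf, (horth a₁ ha₁W _ (P.sub_mem hb' hb₁P)).1,
    (horth _ (W.sub_mem ha' ha₁W) b₁ hb₁P).2, sub_right hf, sub_right hf, hAA, hBB, hA', hB']
  intro h0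
  refine hc1 (mul_right_cancel₀ hζ0 ?_)
  linear_combination -h0

end Cfsg.Agent.H2.SU4
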