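import Cfsg.Agent.H2.SU4.Move

set_option autoImplicit false
set_option linter.unusedSectionVars false

/-!
In `SU(n, q)` with `n ≥ 4` the stabiliser of a non-degenerate one-space is maximal (conjunct (2) of the list for
`SU(4, q)`).
-/

namespace Cfsg.Agent.H2.SU4

open scoped Matrix
open Cfsg.Agent.H98 Cfsg.Agent.H98.Herm

variable {F : Type*} [Field F] [Fintype F] {q n : ℕ} (hF : Fintype.card F = q ^ 2)

local notation "Mat" => Matrix (Fin n) (Fin n) F
local notation "G₁" => Cfsg.GU n F q ⊓ Cfsg.Geo.specialLinear (Fin n) F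
local notation "h" => Cfsg.hermForm n F q

include hF

theorem perp_cond_of_nondegenerate {W : Submodule F (Fin n → F)}
    (hW : Cfsg.Geo.IsNondegenerateOn h W) : ∀ x ∈ W, x ∈ perp (isUnitary_std (n := n) hF) W → x = 0 := by
  intro x hx hxp
  by_contra hne
  obtain ⟨-, y, hy, hxy⟩ := hW x hx hne
  exact hxy ((mem_perpW _).mp hxp y hy)

/-- The stabiliser of a non-degenerate one-space is maximal. -/
theorem su_stab_point_maximal (hn : 4 ≤ n) (W : Submodule F (Fin n → F))
    (hW : ∀ x ∈ W, x ∈ perp (isUnitary_std (n := n) hF) W → x = 0) (hW1 : Module.finrank F W = 1) :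
    Cfsg.Geo.IsMaximalIn G₁ (Cfsg.Geo.subspaceStabilizer W ⊓ G₁) := by
  classical
  set hf := isUnitary_std (n := n) hF with hfdef
  obtain ⟨ζ, hζ0, hζ⟩ := exists_skew hf
  set P := perp hf W with hPdef
  have hP : ∀ x ∈ P, x ∈ perp hf P → x = 0 := fun x hx hx' => by
    rw [hPdef, perp_perp hf] at hx'; exact hW x hx' hx
  have hcompl : IsCompl W P := isCompl_perp hf hW
  have hdimP : 2 ≤ Module.finrank F P := by
    have h1 := finrank_perpW hf W
    rw [Fintype.card_fin, hW1, ← hPdef] at h1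
    omega
  have hdecomp : ∀ v, ∃ a ∈ W, ∃ b ∈ P, v = a + b := fun v => by
    obtain ⟨a, ha, b, hb, he⟩ := Submodule.mem_sup.mp (hcompl.sup_eq_top.ge (Submodule.mem_top (x := v)))
    exact ⟨a, ha, b, hb, he.symm⟩
  have horth : ∀ a ∈ W, ∀ b ∈ P, h a b = 0 ∧ h b a = 0 := fun a ha b hb =>
    ⟨(eq_zero_comm hf).mp ((mem_perpW hf).mp hb a ha), (mem_perpW hf).mp hb a ha⟩
  have hsplit : ∀ a ∈ W, ∀ b ∈ P, h (a + b) (a + b) = h a a + h b b := fun a ha b hb => by
    rw [hf.add_left, add_right hf, add_right hf, (horth a ha b hb).1, (horth a ha b hb).2]; ring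
  obtain ⟨w, hw, hw0⟩ := Submodule.exists_mem_ne_zero_of_ne_bot
    (show W ≠ ⊥ from fun h0 => by rw [h0, finrank_bot] at hW1; omega)
  have hspan : ∀ a ∈ W, ∃ k : F, a = k • w := fun a ha => by
    have e : W = Submodule.span F {w} :=
      (Submodule.eq_of_le_of_finrank_le (Submodule.span_le.mpr (Set.singleton_subset_iff.mpr hw))
        (by rw [finrank_span_singleton hw0, hW1])).symm
    rw [e] at ha
    obtain ⟨k, hk⟩ := Submodule.mem_span_singleton.mp ha
    exact ⟨k, hk.symm⟩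
  have hww : h w w ≠ 0 := fun h0 => hw0 (hW w hw ((mem_perpW hf).mpr fun y hy => by
    obtain ⟨k, rfl⟩ := hspan y hy
    rw [smul_right hf, h0, mul_zero]))
  obtain ⟨e, he, e', he', ee, e'e', e1, e2⟩ := exists_pair_nondeg hf hP hdimP
  refine isMaximalIn_of inf_le_right ?_ fun M hHM hMK g hg hgH => ?_
  · obtain ⟨μ, hμ⟩ := exists_trace hf (a := - h w w) (by rw [map_neg, sigma_apply hf])
    set b := e + μ • e' with hb
    have hbP : b ∈ P := P.add_mem he (P.smul_mem _ he')
    have hvv : h (w + b) (w + b) = 0 := by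
      rw [hsplit w hw b hbP, hb, hf.add_left, add_right hf, add_right hf, hf.smul_left, hf.smul_left, smul_right hf,
        smul_right hf, ee, e'e', e1, e2]
      linear_combination hμ
    refine ⟨uT hf hvv ζ, uT_mem_su hF hvv hζ, fun hmem => ?_⟩
    have h1 := (mem_subspaceStabilizer.mp hmem.1 w).mp hw
    rw [uT_mulVec, add_right hf, (horth w hw b hbP).1, add_zero] at h1
    have h2 := W.smul_mem (ζ * h w w)⁻¹ (W.sub_mem h1 hw)
    rw [add_sub_cancel_left, smul_smul, inv_mul_cancel₀ (mul_ne_zero hζ0 hww), one_smul] at h2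
    have h3 : b ∈ W := by simpa using W.sub_mem h2 hw
    have h4 : h b e' = 0 := (horth b h3 e' he').1
    rw [hb, hf.add_left, hf.smul_left, e1, e'e', mul_zero, add_zero] at h4
    exact one_ne_zero h4
  have hiso : ∀ k ∈ M, ∀ a b, h ((k : Mat) *ᵥ a) ((k : Mat) *ᵥ b) = h a b :=
    fun k hk => (hMK hk).1
  have hCP : ∀ v ∈ P, h v v = 0 → v ∈ centres hf M := fun v hv hvv =>
    ⟨hvv, fun d hd => hHM ⟨uT_stab hf hvv (Or.inr hv) d, uT_mem_su hF hvv hd⟩⟩
  obtain ⟨r, hrC, hrP⟩ : ∃ r ∈ centres hf M, r ∉ P := by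
    by_contra hc
    push Not at hc
    have hle : P ≤ P.comap (Matrix.mulVecLin (g : Mat)) := le_of_isotropic hf he he' ee e'e' e1 e2
      fun v hv hvv => hc _ (centres_conj hf hiso hg (hCP v hv hvv))
    refine hgH ⟨stab_of_maps_into fun a ha => ?_, hMK hg⟩
    rw [← perp_perp hf W, mem_perpW hf]
    intro x hx
    have hx' : ((g⁻¹ : GL (Fin n) F) : Mat) *ᵥ x ∈ P :=
      ((mem_subspaceStabilizer.mp (stab_of_maps_into (W := P) hle)) _).mpr (by rwa [gl_mulVec_inv])
    rw [← gl_mulVec_inv g x, hiso g hg]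
    exact (horth a ha _ hx').1
  obtain ⟨a, ha, b, hb, rfl⟩ := hdecomp r
  have ha0 : a ≠ 0 := fun h0 => hrP (by rw [h0, zero_add]; exact hb)
  obtain ⟨k₀, hk₀⟩ := hspan a ha
  have hk₀0 : k₀ ≠ 0 := fun h0 => ha0 (by rw [hk₀, h0, zero_smul])
  refine su_le_of_uT hF hn fun v hvv d hd => ?_
  suffices hv : v ∈ centres hf M by
    obtain ⟨_, hv'⟩ := hv
    exact hv' d hd
  obtain ⟨a', ha', b', hb', rfl⟩ := hdecomp v
  obtain ⟨k', hk'⟩ := hspan a' ha'
  by_cases hk'0 : k' = 0
  · rw [hk', hk'0, zero_smul, zero_add] at hvv ⊢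
    exact hCP b' hb' hvv
  set k := k' / k₀ with hk
  have e0 : k • a = a' := by rw [hk₀, hk', smul_smul, hk, div_mul_cancel₀ _ hk₀0]
  have hkb : k • b ∈ P := P.smul_mem k hb
  have hrk : k • (a + b) ∈ centres hf M := centres_smul hf hrC k
  rw [smul_add, e0] at hrk
  have n1 : h (k • b) (k • b) = - h a' a' := by
    have := hsplit a' ha' _ hkb
    rw [hrk.1] at this
    linear_combination -this
  have n2 : h b' b' = - h a' a' := by
    rw [hsplit a' ha' b' hb'] at hvv
    linear_combination hvv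
  have n0 : h (k • b) (k • b) ≠ 0 := by
    rw [n1, neg_ne_zero, hk', hf.smul_left, smul_right hf]
    exact mul_ne_zero hk'0 (mul_ne_zero (by simpa using hk'0) hww)
  obtain ⟨t, t1, t2, t3, -, t5⟩ := exists_move hf hP hdimP hkb hb' n0 (n2.trans n1.symm)
  have hWfix : ∀ x ∈ W, (t : Mat) *ᵥ x = x := fun x hx => t5 x (by rw [hPdef, perp_perp hf]; exact hx)
  have htM : t ∈ M := hHM ⟨stab_of_maps_into fun x hx => by rw [hWfix x hx]; exact hx, t1, mem_sl_of_det hf t2⟩
  have := centres_conj hf hiso htM hrk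
  rwa [Matrix.mulVec_add, hWfix a' ha', t3] at this

end Cfsg.Agent.H2.SU4
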