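import Cfsg.Agent.H60.SULow.MonoSix

set_option autoImplicit false
set_option linter.unusedSectionVars false

/-!
Two trace images of norm-one circles meet doubly away from zero, if one of the two norms is a square.
-/

namespace Cfsg.Agent.H2.SU4

open Cfsg.Agent.H98 Cfsg.Agent.H3

variable {F : Type*} [Field F] [Fintype F] {q : ℕ} (hF : Fintype.card F = q ^ 2)

include hF

/-- The other point of a norm circle with the same trace. -/
theorem other_root {A μ : F} (hA : A ≠ 0) (hμ : μ ^ (q + 1) = 1) :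
    ((μ * A) ^ q / A) ^ (q + 1) = 1 ∧
      (μ * A) ^ q / A * A + ((μ * A) ^ q / A * A) ^ q = μ * A + (μ * A) ^ q := by
  refine ⟨?_, ?_⟩
  · rw [div_pow, ← pow_mul, mul_comm q, pow_mul, mul_pow, hμ, one_mul, norm_pow_q hF,
      div_self (pow_ne_zero _ hA)]
  · rw [div_mul_cancel₀ _ hA, pow_q_pow_q hF, add_comm]

/-- In odd characteristic two trace images meet doubly outside zero. -/
theorem exists_double_ne (h2 : (2 : F) ≠ 0) (hq : 4 ≤ q) {A B s : F} (hA : A ≠ 0) (hB : B ≠ 0)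
    (hs : s ^ q = s) (hsA : A ^ (q + 1) = s ^ 2) :
    (∃ ν₁ ν₂ ν' : F, ν₁ ^ (q + 1) = 1 ∧ ν₂ ^ (q + 1) = 1 ∧ ν' ^ (q + 1) = 1 ∧ ν₁ ≠ ν₂ ∧
      ν₁ * A + (ν₁ * A) ^ q ≠ 0 ∧ ν₁ * A + (ν₁ * A) ^ q + (ν' * B + (ν' * B) ^ q) = 0 ∧
      ν₂ * A + (ν₂ * A) ^ q + (ν' * B + (ν' * B) ^ q) = 0) ∨
    (∃ ν₁ ν₂ ν' : F, ν₁ ^ (q + 1) = 1 ∧ ν₂ ^ (q + 1) = 1 ∧ ν' ^ (q + 1) = 1 ∧ ν₁ ≠ ν₂ ∧
      ν₁ * B + (ν₁ * B) ^ q ≠ 0 ∧ ν₁ * B + (ν₁ * B) ^ q + (ν' * A + (ν' * A) ^ q) = 0 ∧
      ν₂ * B + (ν₂ * B) ^ q + (ν' * A + (ν' * A) ^ q) = 0) := by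
  classical
  have hq0 : q ≠ 0 := by omega
  have hneg : ∀ x : F, (-x) ^ q = -(x ^ q) := fun x => by
    rw [← conjQ_apply hF, map_neg, conjQ_apply hF]
  by_cases hAB : A ^ (q + 1) = B ^ (q + 1)
  · -- the two circles coincide
    obtain ⟨ν, hν, hν4⟩ : ∃ ν : F, ν ^ (q + 1) = 1 ∧ ν ^ 4 ≠ (A ^ q / A) ^ 2 := by
      by_contra hall
      push Not at hall
      have h1 : (normOne q F).card ≤ (Polynomial.nthRootsFinset 4 ((A ^ q / A) ^ 2)).card :=
        Finset.card_le_card fun a ha =>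
          (Polynomial.mem_nthRootsFinset (by omega) _).mpr (hall a (mem_normOne.mp ha))
      have h3 : (Polynomial.nthRootsFinset 4 ((A ^ q / A) ^ 2)).card ≤ 4 := by
        rw [Polynomial.nthRootsFinset_def]
        exact (Multiset.toFinset_card_le _).trans (Polynomial.card_nthRoots _ _)
      rw [card_normOne hF] at h1
      omega
    have hνν := norm_one_conj hF hν
    have hkey : ∀ k : F, k * k = 1 → (ν * A) ^ q ≠ k * (ν * A) := by
      intro k hk he
      rw [mul_pow] at he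
      refine hν4 ?_
      have h1 : A ^ q / A = k * (ν * ν) := by
        rw [div_eq_iff hA]
        linear_combination ν * he - (A ^ q) * hνν
      rw [h1]
      linear_combination (-(ν ^ 4)) * hk
    obtain ⟨hn2, hf2⟩ := other_root hF hA hν
    have hν' : (-(ν * A / B)) ^ (q + 1) = 1 := by
      rw [pow_succ, hneg, neg_mul_neg, ← pow_succ, div_pow, mul_pow, hν, one_mul, hAB,
        div_self (pow_ne_zero _ hB)]
    have hsum : -(ν * A / B) * B = -(ν * A) := by rw [neg_mul, div_mul_cancel₀ _ hB]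
    refine Or.inl ⟨ν, (ν * A) ^ q / A, -(ν * A / B), hν, hn2, hν', fun he => hkey 1 (one_mul 1) ?_,
      fun h0 => hkey (-1) (by norm_num) (by linear_combination h0), ?_, ?_⟩
    · rw [eq_div_iff hA] at he
      rw [one_mul]; exact he.symm
    · rw [hsum, hneg]; ring
    · rw [hf2, hsum, hneg]; ring
  let f : F → F → F := fun A ν => ν * A + (ν * A) ^ q
  have hfix : ∀ A ν, f A ν ^ q = f A ν := fun A ν => by
    simp only [f]
    rw [add_pow_q hF, pow_q_pow_q hF, add_comm]
  have hfib : ∀ {A : F}, A ≠ 0 → ∀ S ⊆ normOne q F, ∀ t, (S.filter fun ν => f A ν = t).card ≤ 2 := by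
    intro A hA S hS t
    by_cases he : (S.filter fun ν => f A ν = t) = ∅
    · simp [he]
    obtain ⟨μ, hμ⟩ := Finset.nonempty_iff_ne_empty.mpr he
    rw [Finset.mem_filter] at hμ
    have hμ1 := mem_normOne.mp (hS hμ.1)
    refine (Finset.card_le_card (t := ({μ, (μ * A) ^ q / A} : Finset F)) fun ν hν => ?_).trans Finset.card_le_two
    rw [Finset.mem_filter] at hν
    have hν1 := mem_normOne.mp (hS hν.1)
    have e1 : ν * A + (ν * A) ^ q = μ * A + (μ * A) ^ q := hν.2.trans hμ.2.symm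
    have e2 : (ν * A) * (ν * A) ^ q = (μ * A) * (μ * A) ^ q := by
      rw [← pow_succ', ← pow_succ', mul_pow, mul_pow, hν1, hμ1]
    have e3 : (ν * A - μ * A) * (ν * A - (μ * A) ^ q) = 0 := by linear_combination (ν * A) * e1 - e2
    rw [Finset.mem_insert, Finset.mem_singleton]
    rcases mul_eq_zero.mp e3 with e | e
    · exact Or.inl (mul_right_cancel₀ hA (sub_eq_zero.mp e))
    · exact Or.inr (by rw [eq_div_iff hA]; exact sub_eq_zero.mp e)
  set Q := Finset.univ.filter fun x : F => x ^ q = x with hQdef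
  have hQ : Q.card = q := by
    rw [hQdef, ← Fintype.card_subtype, ← Nat.card_eq_fintype_card, card_fixed hF]
  let img : F → Finset F := fun A => (normOne q F).image (f A)
  let img' : Finset F := (img B).image fun t => -t
  have hi : img'.card = (img B).card := Finset.card_image_of_injective _ neg_injective
  have hcB : q + 1 ≤ 2 * (img B).card := by
    have h1 := Finset.card_le_mul_card_image (normOne q F) 2 fun t _ => hfib hB _ Finset.Subset.rfl t
    rwa [card_normOne hF] at h1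
  -- the point of trace `2 s` is simple
  have hs0 : s ≠ 0 := fun h0 => pow_ne_zero (q + 1) hA (by rw [hsA, h0]; simp)
  have hν₀ : s / A ∈ normOne q F := mem_normOne.mpr (by
    rw [div_pow, hsA, pow_succ, hs, ← sq, div_self (pow_ne_zero _ hs0)])
  have hfν₀ : f A (s / A) = 2 * s := by
    simp only [f]
    rw [div_mul_cancel₀ _ hA, hs]
    ring
  have hcA : q + 2 ≤ 2 * (img A).card := by
    have h1 := Finset.card_le_mul_card_image ((normOne q F).erase (s / A)) 2 fun t _ =>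
      hfib hA _ (Finset.erase_subset _ _) t
    have h3 : ((normOne q F).erase (s / A)).image (f A) ⊆ (img A).erase (2 * s) := fun t ht => by
      obtain ⟨ν, hν, rfl⟩ := Finset.mem_image.mp ht
      obtain ⟨hne, hν⟩ := Finset.mem_erase.mp hν
      refine Finset.mem_erase.mpr ⟨fun he => hne ?_, Finset.mem_image_of_mem _ hν⟩
      simp only [f] at he
      have hν1 := mem_normOne.mp hν
      have e2 : (ν * A) * (ν * A) ^ q = s ^ 2 := by rw [← pow_succ', mul_pow, hν1, one_mul, hsA]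
      have e3 : (ν * A - s) ^ 2 = 0 := by linear_combination (ν * A) * he - e2
      rw [eq_div_iff hA]
      exact sub_eq_zero.mp (eq_zero_of_pow_eq_zero e3)
    have h4 := Finset.card_le_card h3
    have h5 : 2 * s ∈ img A := by rw [← hfν₀]; exact Finset.mem_image_of_mem _ hν₀
    rw [Finset.card_erase_of_mem h5] at h4
    rw [Finset.card_erase_of_mem hν₀, card_normOne hF] at h1
    have h6 := Finset.card_pos.mpr ⟨_, h5⟩
    omega
  have hun : (img A ∪ img') ⊆ Q := fun t ht => by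
    refine Finset.mem_filter.mpr ⟨Finset.mem_univ _, ?_⟩
    simp only [img, img', Finset.mem_union, Finset.mem_image] at ht
    rcases ht with ⟨ν, -, rfl⟩ | ⟨t, ⟨ν, -, rfl⟩, rfl⟩
    · exact hfix A ν
    · rw [hneg, hfix]
  have hui := Finset.card_union_add_card_inter (img A) img'
  have hle := Finset.card_le_card hun
  obtain ⟨t, ht, ht0⟩ := Finset.exists_mem_notMem_of_card_lt_card (s := ({0} : Finset F)) (t := img A ∩ img')
    (by rw [Finset.card_singleton]; omega)
  rw [Finset.mem_singleton] at ht0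
  obtain ⟨htA, htB⟩ := Finset.mem_inter.mp ht
  obtain ⟨μ, hμ, hμt⟩ := Finset.mem_image.mp htA
  obtain ⟨t', ht', htt'⟩ := Finset.mem_image.mp htB
  obtain ⟨μ', hμ', hμt'⟩ := Finset.mem_image.mp ht'
  simp only [f] at hμt hμt'
  rw [mem_normOne] at hμ hμ'
  by_cases hx : (μ * A) ^ q = μ * A
  swap
  · obtain ⟨hn2, hf2⟩ := other_root hF hA hμ
    refine Or.inl ⟨μ, (μ * A) ^ q / A, μ', hμ, hn2, hμ', fun he => hx ?_, by rw [hμt]; exact ht0, ?_, ?_⟩
    · rw [eq_div_iff hA] at he; exact he.symm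
    · rw [hμt, hμt', ← htt']; ring
    · rw [hf2, hμt, hμt', ← htt']; ring
  by_cases hy : (μ' * B) ^ q = μ' * B
  swap
  · obtain ⟨hn2, hf2⟩ := other_root hF hB hμ'
    refine Or.inr ⟨μ', (μ' * B) ^ q / B, μ, hμ', hn2, hμ, fun he => hy ?_,
      fun h0 => ht0 (by rw [← htt', ← hμt', h0, neg_zero]), ?_, ?_⟩
    · rw [eq_div_iff hB] at he; exact he.symm
    · rw [hμt, hμt', ← htt']; ring
    · rw [hf2, hμt, hμt', ← htt']; ring
  exfalso
  refine hAB ?_
  rw [hx] at hμt
  rw [hy] at hμt'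
  have hxy : μ * A = -(μ' * B) := by
    refine mul_left_cancel₀ h2 ?_
    linear_combination hμt + hμt' - htt'
  calc A ^ (q + 1) = (μ * A) ^ (q + 1) := by rw [mul_pow, hμ, one_mul]
    _ = (μ' * B) ^ (q + 1) := by rw [hxy, pow_succ, hneg, neg_mul_neg, ← pow_succ]
    _ = B ^ (q + 1) := by rw [mul_pow, hμ', one_mul]

end Cfsg.Agent.H2.SU4
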